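import Mathlib
import Cfsg.Agent.Helper43.OTDefs

set_option autoImplicit false

/-!
# CALL OT (helper43, S5972), piece FIXV (helper50)

An isometry of odd order of an odd-dimensional nondegenerate symmetric space has a nonzero fixed
vector: with `M` the matrix of `T` on `D` and `G` the Gram matrix, `Mᵀ G M = G`, so `det M = 1` and
`det (M - 1) = det (1 - Mᵀ) = (-1)^n det (M - 1)`.
-/

namespace Cfsg.Agent.Helper50.OT5972

open Module Polynomial Cfsg.Agent.Helper90.HT Cfsg.Agent.Helper43.OT
open Cfsg.Agent.Helper43.C3O (gm)

universe u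

section geom

variable {F : Type*} [Field F] {V : Type*} [AddCommGroup V] [Module F V] [FiniteDimensional F V]
  (h : V → V → F)

/-- FIXV: an isometry of odd order of an odd-dimensional nondegenerate symmetric space has a nonzero
fixed vector (`det T = 1` and `det (T - 1) = (-1)^n det (T - 1)`). -/
theorem ot_fixv (hh : IsHerm (RingHom.id F) h) (h2 : (2 : F) ≠ 0) (T : Module.End F V)
    (hT : HPres h T) (r : ℕ) (hr : Odd r) (hTr : T ^ r = 1) (D : Submodule F V)
    (hDT : D.map T ≤ D) (hD : HNondegOn h D) (hodd : Odd (finrank F D)) :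
    ∃ v ∈ D, v ≠ 0 ∧ T v = v := by
  classical
  have hTD : ∀ x ∈ D, T x ∈ D := fun x hx => hDT (Submodule.mem_map_of_mem hx)
  obtain ⟨S, hS⟩ : ∃ S : Module.End F D, ∀ x : D, ((S x : D) : V) = T (x : V) :=
    ⟨T.restrict hTD, fun x => rfl⟩
  have hSpow : ∀ (k : ℕ) (x : D), (((S ^ k) x : D) : V) = (T ^ k) (x : V) := by
    intro k
    induction k with
    | zero => intro x; simp
    | succ k ih =>
      intro x
      rw [pow_succ', Module.End.mul_apply, hS, ih, pow_succ', Module.End.mul_apply]
  have hSr : S ^ r = 1 := by
    ext x
    rw [hSpow, hTr]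
    simp
  set n := finrank F D with hn
  set b : Basis (Fin n) F D := Module.finBasis F D with hb
  set M : Matrix (Fin n) (Fin n) F := LinearMap.toMatrix b b S with hM
  set G : Matrix (Fin n) (Fin n) F := Matrix.of fun i j => h (b i : V) (b j : V) with hG
  have hSb : ∀ i, ((S (b i) : D) : V) = ∑ k, M k i • (b k : V) := by
    intro i
    have h1 := b.sum_repr (S (b i))
    have h3 := congrArg (fun x : D => (x : V)) h1
    simp only [Submodule.coe_sum, Submodule.coe_smul] at h3
    rw [← h3]
    refine Finset.sum_congr rfl fun k _ => ?_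
    rw [hM, LinearMap.toMatrix_apply]
  have hiso : ∀ i j, h ((S (b i) : D) : V) ((S (b j) : D) : V) = h (b i : V) (b j : V) := by
    intro i j
    rw [hS, hS]
    exact hT _ _
  have hMG : M.transpose * G * M = G := by
    ext i j
    have h1 := hiso i j
    rw [hSb, hSb, hh.sum_left] at h1
    simp only [hh.smul_left, hh.sum_right, hh.smul_right, RingHom.id_apply] at h1
    rw [Matrix.mul_apply]
    simp only [Matrix.mul_apply, Matrix.transpose_apply, Finset.sum_mul]
    rw [Finset.sum_comm]
    rw [hG, Matrix.of_apply, ← h1]
    refine Finset.sum_congr rfl fun k _ => ?_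
    rw [Finset.mul_sum]
    refine Finset.sum_congr rfl fun l _ => ?_
    simp only [Matrix.of_apply]
    ring
  -- the Gram matrix is invertible
  have hGdet : G.det ≠ 0 := by
    intro h0
    obtain ⟨c, hc0, hc⟩ := Matrix.exists_mulVec_eq_zero_iff.mpr h0
    have hx0 : b.equivFun.symm c = 0 := by
      have hxD : ((b.equivFun.symm c : D) : V) = 0 := by
        apply hD _ (b.equivFun.symm c).2
        intro w hw
        have hbi : ∀ i, h ((b.equivFun.symm c : D) : V) (b i : V) = 0 := by
          intro i
          apply hh.eq_zero_symm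
          rw [Basis.equivFun_symm_apply]
          simp only [Submodule.coe_sum, Submodule.coe_smul]
          rw [hh.sum_right]
          simp only [hh.smul_right, RingHom.id_apply]
          have h4 := congrFun hc i
          rw [Matrix.mulVec, dotProduct] at h4
          simp only [hG, Matrix.of_apply, Pi.zero_apply] at h4
          rw [← h4]
          refine Finset.sum_congr rfl fun j _ => ?_
          ring
        have h5 := b.sum_repr ⟨w, hw⟩
        have h6 := congrArg (fun x : D => (x : V)) h5
        simp only [Submodule.coe_sum, Submodule.coe_smul] at h6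
        rw [← h6, hh.sum_right]
        refine Finset.sum_eq_zero fun i _ => ?_
        rw [hh.smul_right, hbi i, mul_zero]
      exact Subtype.ext hxD
    apply hc0
    have h7 := congrArg b.equivFun hx0
    rw [LinearEquiv.apply_symm_apply, map_zero] at h7
    exact h7
  -- determinant of `M`
  have hdetM : M.det = LinearMap.det S := LinearMap.det_toMatrix b S
  have hdet2 : M.det * M.det = 1 := by
    have h1 := congrArg Matrix.det hMG
    rw [Matrix.det_mul, Matrix.det_mul, Matrix.det_transpose] at h1
    have h3 : (M.det * M.det - 1) * G.det = 0 := by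
      linear_combination h1
    have h4 := (mul_eq_zero.mp h3).resolve_right hGdet
    exact sub_eq_zero.mp h4
  have hdetr : M.det ^ r = 1 := by
    rw [hdetM, ← map_pow, hSr, map_one]
  have hdet1 : M.det = 1 := by
    obtain ⟨k, hk⟩ := hr
    rw [hk, pow_succ, pow_mul, pow_two, hdet2, one_pow, one_mul] at hdetr
    exact hdetr
  -- determinant of `M - 1`
  have hkey : M.transpose * G * (M - 1) = (1 - M.transpose) * G := by
    rw [mul_sub, hMG, mul_one, sub_mul, one_mul]
  have hdetM1 : (M - 1).det = 0 := by
    have h1 : (M.transpose * G * (M - 1)).det = ((1 - M.transpose) * G).det :=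
      congrArg Matrix.det hkey
    have hL : (M.transpose * G * (M - 1)).det = G.det * (M - 1).det := by
      rw [Matrix.det_mul, Matrix.det_mul, Matrix.det_transpose, hdet1, one_mul]
    have h3 : (1 - M.transpose) = (-(M - 1)).transpose := by
      rw [Matrix.transpose_neg, Matrix.transpose_sub, Matrix.transpose_one]
      abel
    have hR : ((1 - M.transpose) * G).det = -((M - 1).det) * G.det := by
      rw [Matrix.det_mul, h3, Matrix.det_transpose, Matrix.det_neg, Fintype.card_fin,
        hodd.neg_one_pow]
      ring
    have h4 : (2 * (M - 1).det) * G.det = 0 := by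
      have h5 := hL.symm.trans (h1.trans hR)
      linear_combination h5
    have h6 := (mul_eq_zero.mp h4).resolve_right hGdet
    exact (mul_eq_zero.mp h6).resolve_left h2
  obtain ⟨c, hc0, hc⟩ := Matrix.exists_mulVec_eq_zero_iff.mpr hdetM1
  have hMc : M.mulVec c = c := by
    rw [Matrix.sub_mulVec, Matrix.one_mulVec, sub_eq_zero] at hc
    exact hc
  have hrepr : b.equivFun (b.equivFun.symm c) = c := b.equivFun.apply_symm_apply c
  have hSx : S (b.equivFun.symm c) = b.equivFun.symm c := by
    apply b.equivFun.injective
    have h1 := LinearMap.toMatrix_mulVec_repr b b S (b.equivFun.symm c)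
    have h2 : (b.repr (b.equivFun.symm c) : Fin n → F) = c := hrepr
    rw [h2] at h1
    rw [hrepr]
    funext i
    have h3 := congrFun h1 i
    rw [Basis.equivFun_apply, ← h3, ← hM, hMc]
  refine ⟨((b.equivFun.symm c : D) : V), (b.equivFun.symm c).2, ?_, ?_⟩
  · intro h0
    apply hc0
    have h1 : b.equivFun.symm c = 0 := Subtype.ext h0
    rw [← hrepr, h1, map_zero]
  · rw [← hS, hSx]

end geom

end Cfsg.Agent.Helper50.OT5972
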