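import Mathlib
import Cfsg.Agent.Helper43.OTDefs
import Cfsg.Agent.Helper33.HTHSUM

set_option autoImplicit false

/-!
# CALL OT (helper43, S5972), pieces INVA and INVB (helper50)

Involutory isometries `T² = 1` of a symmetric space in odd characteristic:
`V = ker (T - 1) ⊕ ker (T + 1)`, orthogonally.
-/

namespace Cfsg.Agent.Helper50.OT5972

open Module Polynomial Cfsg.Agent.Helper90.HT Cfsg.Agent.Helper43.OT
open Cfsg.Agent.Helper43.C3O (gm)

universe u

section geom

variable {F : Type*} [Field F] {V : Type*} [AddCommGroup V] [Module F V] [FiniteDimensional F V]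
  (h : V → V → F)

omit [FiniteDimensional F V] in
theorem inv_mem_ker_sub (T : Module.End F V) (v : V) : v ∈ LinearMap.ker (T - 1) ↔ T v = v := by
  rw [LinearMap.mem_ker, LinearMap.sub_apply, Module.End.one_apply, sub_eq_zero]

omit [FiniteDimensional F V] in
theorem inv_mem_ker_add (T : Module.End F V) (v : V) : v ∈ LinearMap.ker (T + 1) ↔ T v = -v := by
  rw [LinearMap.mem_ker, LinearMap.add_apply, Module.End.one_apply, add_eq_zero_iff_eq_neg]

omit [FiniteDimensional F V] in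
theorem inv_ker_inf (h2 : (2 : F) ≠ 0) (T : Module.End F V) :
    LinearMap.ker (T - 1) ⊓ LinearMap.ker (T + 1) = ⊥ := by
  rw [eq_bot_iff]
  rintro v ⟨h1, h1'⟩
  rw [SetLike.mem_coe, inv_mem_ker_sub] at h1
  rw [SetLike.mem_coe, inv_mem_ker_add] at h1'
  rw [Submodule.mem_bot]
  have h3 : (2 : F) • v = 0 := by
    rw [two_smul]
    nth_rewrite 1 [← h1]
    rw [h1', neg_add_cancel]
  exact (smul_eq_zero.mp h3).resolve_left h2

omit [FiniteDimensional F V] in
theorem inv_orth (hh : IsHerm (RingHom.id F) h) (h2 : (2 : F) ≠ 0) (T : Module.End F V)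
    (hT : HPres h T) : ∀ u ∈ LinearMap.ker (T - 1), ∀ v ∈ LinearMap.ker (T + 1), h u v = 0 := by
  intro u hu v hv
  rw [inv_mem_ker_sub] at hu
  rw [inv_mem_ker_add] at hv
  have h1 := hT u v
  rw [hu, hv, hh.neg_right] at h1
  have h3 : (2 : F) * h u v = 0 := by linear_combination -h1
  exact (mul_eq_zero.mp h3).resolve_left h2

omit [FiniteDimensional F V] in
/-- the decomposition of a vector of an invariant subspace -/
theorem inv_split (h2 : (2 : F) ≠ 0) (T : Module.End F V) (hT2 : T ^ 2 = 1)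
    (W : Submodule F V) (hW : W.map T ≤ W) (w : V) (hw : w ∈ W) :
    ∃ a ∈ W ⊓ LinearMap.ker (T - 1), ∃ c ∈ W ⊓ LinearMap.ker (T + 1), a + c = w := by
  have hTT : ∀ x, T (T x) = x := by
    intro x
    rw [← Module.End.mul_apply, ← pow_two, hT2, Module.End.one_apply]
  have hTw : T w ∈ W := hW (Submodule.mem_map_of_mem hw)
  refine ⟨(2 : F)⁻¹ • (w + T w), ⟨W.smul_mem _ (W.add_mem hw hTw), ?_⟩,
    (2 : F)⁻¹ • (w - T w), ⟨W.smul_mem _ (W.sub_mem hw hTw), ?_⟩, ?_⟩
  · rw [SetLike.mem_coe, inv_mem_ker_sub, map_smul, map_add, hTT, add_comm]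
  · rw [SetLike.mem_coe, inv_mem_ker_add, map_smul, map_sub, hTT, ← smul_neg, neg_sub]
  · rw [← smul_add, add_add_sub_cancel, ← two_smul F w, smul_smul, inv_mul_cancel₀ h2, one_smul]

/-- a subspace of prescribed dimension -/
theorem inv_exists_sub (W : Submodule F V) (a : ℕ) (ha : a ≤ finrank F W) :
    ∃ W' : Submodule F V, W' ≤ W ∧ finrank F W' = a := by
  classical
  obtain ⟨b⟩ : Nonempty (Basis (Fin (finrank F W)) F W) := ⟨Module.finBasis F W⟩
  refine ⟨Submodule.span F (Set.range fun i : Fin a => (b (Fin.castLE ha i) : V)), ?_, ?_⟩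
  · rw [Submodule.span_le]
    rintro _ ⟨i, rfl⟩
    exact (b _).2
  · have h1 : LinearIndependent F (fun i : Fin (finrank F W) => (b i : V)) :=
      b.linearIndependent.map' W.subtype (Submodule.ker_subtype W)
    have hli : LinearIndependent F (fun i : Fin a => (b (Fin.castLE ha i) : V)) :=
      h1.comp _ (Fin.castLE_injective ha)
    rw [finrank_span_eq_card hli, Fintype.card_fin]

/-- INVA: involutions, existence (uses `ht_sum` with `C = ker (T-1)`, `D = ker (T+1)`). -/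
theorem ot_inv_a (hh : IsHerm (RingHom.id F) h) (h2 : (2 : F) ≠ 0) (T : Module.End F V)
    (hT : HPres h T) (hT2 : T ^ 2 = 1) (A₁ A₂ : Submodule F V)
    (hA₁ : A₁ ≤ LinearMap.ker (T - 1)) (hA₂ : A₂ ≤ LinearMap.ker (T + 1)) (h1 : HTI h A₁)
    (h2' : HTI h A₂) (m : ℕ) (hm : m ≤ finrank F A₁ + finrank F A₂) :
    ∃ W : Submodule F V, finrank F W = m ∧ HTI h W ∧ W.map T ≤ W := by
  obtain ⟨B₁, hB₁, hB₁d⟩ := inv_exists_sub A₁ (min m (finrank F A₁)) (min_le_right _ _)
  obtain ⟨B₂, hB₂, hB₂d⟩ := inv_exists_sub A₂ (m - min m (finrank F A₁)) (by omega)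
  have hti1 : HTI h B₁ := fun u hu v hv => h1 u (hB₁ hu) v (hB₁ hv)
  have hti2 : HTI h B₂ := fun u hu v hv => h2' u (hB₂ hu) v (hB₂ hv)
  obtain ⟨hti, hfr⟩ := Cfsg.Agent.Helper33.HT5953.ht_sum (RingHom.id F) h hh B₁ B₂ (LinearMap.ker (T - 1))
    (LinearMap.ker (T + 1)) (hB₁.trans hA₁) (hB₂.trans hA₂) (inv_ker_inf h2 T)
    (inv_orth h hh h2 T hT) hti1 hti2
  refine ⟨B₁ ⊔ B₂, ?_, hti, ?_⟩
  · rw [hfr, hB₁d, hB₂d]
    omega
  · rw [Submodule.map_sup]
    refine sup_le_sup ?_ ?_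
    · rintro _ ⟨v, hv, rfl⟩
      have h3 := (inv_mem_ker_sub T v).mp (hA₁ (hB₁ hv))
      rw [h3]
      exact hv
    · rintro _ ⟨v, hv, rfl⟩
      have h3 := (inv_mem_ker_add T v).mp (hA₂ (hB₂ hv))
      rw [h3]
      exact B₂.neg_mem hv

/-- INVB: involutions, structure. -/
theorem ot_inv_b (hh : IsHerm (RingHom.id F) h) (hnd : ∀ v, (∀ w, h v w = 0) → v = 0)
    (h2 : (2 : F) ≠ 0) (T : Module.End F V) (hT : HPres h T) (hT2 : T ^ 2 = 1) :
    finrank F (LinearMap.ker (T - 1)) + finrank F (LinearMap.ker (T + 1)) = finrank F V ∧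
    HNondegOn h (LinearMap.ker (T - 1)) ∧ HNondegOn h (LinearMap.ker (T + 1)) ∧
    ∀ W : Submodule F V, W.map T ≤ W →
      finrank F W = finrank F (W ⊓ LinearMap.ker (T - 1) : Submodule F V) +
        finrank F (W ⊓ LinearMap.ker (T + 1) : Submodule F V) := by
  have horth := inv_orth h hh h2 T hT
  have hsplit : ∀ W : Submodule F V, W.map T ≤ W →
      finrank F W = finrank F (W ⊓ LinearMap.ker (T - 1) : Submodule F V) +
        finrank F (W ⊓ LinearMap.ker (T + 1) : Submodule F V) := by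
    intro W hW
    have h1 := Submodule.finrank_sup_add_finrank_inf_eq (W ⊓ LinearMap.ker (T - 1))
      (W ⊓ LinearMap.ker (T + 1))
    have h3 : (W ⊓ LinearMap.ker (T - 1)) ⊓ (W ⊓ LinearMap.ker (T + 1)) = ⊥ := by
      rw [eq_bot_iff, ← inv_ker_inf h2 T]
      exact inf_le_inf inf_le_right inf_le_right
    have h4 : (W ⊓ LinearMap.ker (T - 1)) ⊔ (W ⊓ LinearMap.ker (T + 1)) = W := by
      apply le_antisymm (sup_le inf_le_left inf_le_left)
      intro w hw
      obtain ⟨a, ha, c, hc, rfl⟩ := inv_split h2 T hT2 W hW w hw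
      exact Submodule.add_mem_sup ha hc
    rw [h3, finrank_bot, add_zero, h4] at h1
    exact h1
  have htop : (⊤ : Submodule F V).map T ≤ ⊤ := le_top
  refine ⟨?_, ?_, ?_, hsplit⟩
  · have h1 := hsplit ⊤ htop
    rw [top_inf_eq, top_inf_eq, finrank_top] at h1
    exact h1.symm
  · intro u hu hu0
    apply hnd
    intro x
    obtain ⟨a, ha, c, hc, rfl⟩ := inv_split h2 T hT2 ⊤ htop x Submodule.mem_top
    rw [hh.add_right, hu0 a ha.2, horth u hu c hc.2, add_zero]
  · intro u hu hu0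
    apply hnd
    intro x
    obtain ⟨a, ha, c, hc, rfl⟩ := inv_split h2 T hT2 ⊤ htop x Submodule.mem_top
    rw [hh.add_right, hu0 c hc.2, hh.eq_zero_symm (horth a ha.2 u hu), add_zero]

end geom

end Cfsg.Agent.Helper50.OT5972
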