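import Mathlib
import Cfsg.Prelude.Def_GeometricClasses
import Cfsg.Prelude.Def_Classical
import Cfsg.Agent.Helper58.TSDefs
import Cfsg.Agent.Helper98.OPar
import Cfsg.Agent.Helper50.OTINV

set_option autoImplicit false

/-!
# Sub-CALL TSR2 (helper90), pieces SPLA (`r2_split`) and INVQ (`r2_inv_ts`), by helper50

Bridges from the Prelude language (`Q : (ι → F) → F`, matrices) to the involution pieces
`ot_inv_a` / `ot_inv_b` of CALL OT.
-/

namespace Cfsg.Agent.Helper50.TSR2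

open Module Cfsg Cfsg.Geo Cfsg.Agent.Helper58.TS
open scoped MatrixGroups

section pieces

variable {ι : Type} [Fintype ι] [DecidableEq ι] {F : Type*} [Field F] [Fintype F]

omit [Fintype F] [Fintype ι] [DecidableEq ι] in
/-- the polar form of the bundled form is nondegenerate -/
theorem r2_ph_nondeg (Q : (ι → F) → F) (hQ : IsNondegenerateQuadraticForm Q) (v : ι → F)
    (hv : ∀ w, Cfsg.Agent.Helper43.OT.ph (Cfsg.Agent.Helper98.op_qf Q hQ) v w = 0) : v = 0 := by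
  by_contra h0
  obtain ⟨x, hx⟩ := (hQ.nondegenerate v h0).2
  exact hx (hv x)

omit [Fintype F] in
/-- an isometry matrix preserves the polar form -/
theorem r2_hpres (Q : (ι → F) → F) (hQ : IsNondegenerateQuadraticForm Q) (M : Matrix ι ι F)
    (hM : ∀ v, Q (M.mulVec v) = Q v) :
    Cfsg.Agent.Helper90.HT.HPres (Cfsg.Agent.Helper43.OT.ph (Cfsg.Agent.Helper98.op_qf Q hQ))
      (Matrix.toLin' M) := by
  apply Cfsg.Agent.Helper43.OT.hpres_ph
  intro v
  rw [Matrix.toLin'_apply]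
  exact hM v

omit [Fintype F] in
/-- an involutory matrix gives an involutory endomorphism -/
theorem r2_sq_one (M : Matrix ι ι F) (hM2 : M * M = 1) :
    (Matrix.toLin' M : Module.End F (ι → F)) ^ 2 = 1 := by
  rw [pow_two, Module.End.mul_eq_comp, ← Matrix.toLin'_mul, hM2, Matrix.toLin'_one]
  rfl

omit [Fintype F] [Fintype ι] [DecidableEq ι] in
/-- from `HNondegOn` of the polar form to the Prelude's `IsNondegenerateOn` -/
theorem r2_nondegOn (Q : (ι → F) → F) (hQ : IsNondegenerateQuadraticForm Q)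
    (D : Submodule F (ι → F))
    (hD : Cfsg.Agent.Helper90.HT.HNondegOn
      (Cfsg.Agent.Helper43.OT.ph (Cfsg.Agent.Helper98.op_qf Q hQ)) D) :
    IsNondegenerateOn (QuadraticMap.polar Q) D := by
  intro w hw hw0
  have h1 : ∃ x ∈ D, QuadraticMap.polar Q w x ≠ 0 := by
    by_contra hcon
    push Not at hcon
    exact hw0 (hD w hw hcon)
  refine ⟨?_, h1⟩
  obtain ⟨x, hx, hx0⟩ := h1
  refine ⟨x, hx, ?_⟩
  rw [QuadraticMap.polar_comm]
  exact hx0

/-- SPLA [M] (bridge to OT INVB = `Helper50.OTINV` / `Helper29.OTINVB`): the eigenspaces of an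
involutory isometry. -/
theorem r2_split (Q : (ι → F) → F) (hQ : IsNondegenerateQuadraticForm Q) (h2 : (2 : F) ≠ 0)
    (M : Matrix ι ι F) (hM : ∀ v, Q (M.mulVec v) = Q v) (hM2 : M * M = 1) :
    IsNondegenerateOn (QuadraticMap.polar Q) (LinearMap.ker (Matrix.toLin' M - 1)) ∧
    IsNondegenerateOn (QuadraticMap.polar Q) (LinearMap.ker (Matrix.toLin' M + 1)) ∧
    finrank F (LinearMap.ker (Matrix.toLin' M - 1)) +
      finrank F (LinearMap.ker (Matrix.toLin' M + 1)) = Fintype.card ι ∧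
    ∀ W : Submodule F (ι → F), W.map (Matrix.toLin' M) ≤ W →
      finrank F W = finrank F (W ⊓ LinearMap.ker (Matrix.toLin' M - 1) : Submodule F (ι → F)) +
        finrank F (W ⊓ LinearMap.ker (Matrix.toLin' M + 1) : Submodule F (ι → F)) := by
  obtain ⟨h1, h3, h4, h5⟩ := Cfsg.Agent.Helper50.OT5972.ot_inv_b
    (Cfsg.Agent.Helper43.OT.ph (Cfsg.Agent.Helper98.op_qf Q hQ))
    (Cfsg.Agent.Helper43.OT.isHerm_ph _) (r2_ph_nondeg Q hQ) h2 (Matrix.toLin' M)
    (r2_hpres Q hQ M hM) (r2_sq_one M hM2)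
  refine ⟨r2_nondegOn Q hQ _ h3, r2_nondegOn Q hQ _ h4, ?_, h5⟩
  rw [h1, Module.finrank_fintype_fun_eq_card]

/-- INVQ [S] (bridge to OT INVA = `Helper50.OTINV` / `Helper93.OTINVA`). -/
theorem r2_inv_ts (Q : (ι → F) → F) (hQ : IsNondegenerateQuadraticForm Q) (h2 : (2 : F) ≠ 0)
    (M : Matrix ι ι F) (hM : ∀ v, Q (M.mulVec v) = Q v) (hM2 : M * M = 1)
    (A₁ A₂ : Submodule F (ι → F)) (hA₁ : A₁ ≤ LinearMap.ker (Matrix.toLin' M - 1))
    (hA₂ : A₂ ≤ LinearMap.ker (Matrix.toLin' M + 1)) (h1 : ∀ w ∈ A₁, Q w = 0)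
    (h2' : ∀ w ∈ A₂, Q w = 0) (k : ℕ) (hk : k ≤ finrank F A₁ + finrank F A₂) :
    InvTS Q M k := by
  obtain ⟨W, hW1, hW2, hW3⟩ := Cfsg.Agent.Helper50.OT5972.ot_inv_a
    (Cfsg.Agent.Helper43.OT.ph (Cfsg.Agent.Helper98.op_qf Q hQ))
    (Cfsg.Agent.Helper43.OT.isHerm_ph _) h2 (Matrix.toLin' M)
    (r2_hpres Q hQ M hM) (r2_sq_one M hM2) A₁ A₂ hA₁ hA₂
    ((Cfsg.Agent.Helper43.OT.hti_ph_iff h2 _ A₁).mpr h1)
    ((Cfsg.Agent.Helper43.OT.hti_ph_iff h2 _ A₂).mpr h2') k hk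
  exact ⟨W, hW1, (Cfsg.Agent.Helper43.OT.hti_ph_iff h2 _ W).mp hW2, hW3⟩

end pieces

end Cfsg.Agent.Helper50.TSR2
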