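import Mathlib
import Cfsg.Agent.Lead.H581Defs
import Cfsg.Agent.Helper31.H581F

/-!
CALL S4221 (Hall 5.8.1), PIECE A2 (helper50): existence of the two kinds of four-groups of `G` acting on four
given points, and the factorisation of an involution of type `(a b)(c d)` as a product of two commuting involutions.
-/

set_option autoImplicit false

namespace Cfsg.Agent.Helper50.H581A2

open Cfsg.Agent.Lead.H581 Equiv Cfsg.Agent.Helper31.H581F

variable {α : Type*} [Fintype α] [DecidableEq α]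

/-- PIECE A2 (auxiliary) -/
theorem exists_invol_of_sq_mem (G : Subgroup (Perm α)) (h : ℕ) (H : Hyp G h) (a b c d : α) (hd : Dist4 a b c d)
    (g : Perm α) (hg : g ∈ G) (hg2 : g * g ∈ stab4 G a b c d) :
    ∃ u ∈ G, u * u = 1 ∧ u a = g a ∧ u b = g b ∧ u c = g c ∧ u d = g d := by
  obtain ⟨k, hk⟩ := H.odd
  have hcard := H.card a b c d hd
  have hpow : (g * g) ^ h = 1 := by
    have h1 : (⟨g * g, hg2⟩ : stab4 G a b c d) ^ Nat.card (stab4 G a b c d) = 1 := pow_card_eq_one'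
    rw [hcard] at h1
    have h2 := congrArg Subtype.val h1
    simpa using h2
  have hkmem : (g * g) ^ k ∈ stab4 G a b c d := Subgroup.pow_mem _ hg2 k
  obtain ⟨_, ka, kb, kc, kd⟩ := mem_stab4.mp hkmem
  have hu : g ^ h = g * (g * g) ^ k := by
    rw [hk, pow_succ', pow_mul, pow_two]
  refine ⟨g ^ h, G.pow_mem hg h, ?_, ?_, ?_, ?_, ?_⟩
  · rw [← pow_add, ← two_mul, pow_mul, pow_two, hpow]
  · rw [hu, Perm.mul_apply, ka]
  · rw [hu, Perm.mul_apply, kb]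
  · rw [hu, Perm.mul_apply, kc]
  · rw [hu, Perm.mul_apply, kd]

/-- an involution of `G` with prescribed (involutive) action on the four points -/
theorem exists_invol (G : Subgroup (Perm α)) (h : ℕ) (H : Hyp G h) (a b c d : α) (hd : Dist4 a b c d)
    (a' b' c' d' : α) (hd' : Dist4 a' b' c' d')
    (hinv : ∀ g : Perm α, g a = a' → g b = b' → g c = c' → g d = d' →
      g a' = a ∧ g b' = b ∧ g c' = c ∧ g d' = d) :
    ∃ u ∈ G, u * u = 1 ∧ u a = a' ∧ u b = b' ∧ u c = c' ∧ u d = d' := by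
  obtain ⟨g, hg, ga, gb, gc, gd⟩ := H.trans a b c d a' b' c' d' hd hd'
  obtain ⟨ga', gb', gc', gd'⟩ := hinv g ga gb gc gd
  have hg2 : g * g ∈ stab4 G a b c d := by
    refine mem_stab4.mpr ⟨G.mul_mem hg hg, ?_, ?_, ?_, ?_⟩
    · rw [Perm.mul_apply, ga, ga']
    · rw [Perm.mul_apply, gb, gb']
    · rw [Perm.mul_apply, gc, gc']
    · rw [Perm.mul_apply, gd, gd']
  obtain ⟨u, hu, hu2, ua, ub, uc, ud⟩ := exists_invol_of_sq_mem G h H a b c d hd g hg hg2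
  exact ⟨u, hu, hu2, ua.trans ga, ub.trans gb, uc.trans gc, ud.trans gd⟩

/-- an involution of `G` permuting the four points normalises their pointwise stabiliser -/
theorem norm_stab4 (G : Subgroup (Perm α)) (a b c d : α) (u : Perm α) (hu : u ∈ G) (hu2 : u * u = 1)
    (ha : u a = a ∨ u a = b ∨ u a = c ∨ u a = d) (hb : u b = a ∨ u b = b ∨ u b = c ∨ u b = d)
    (hc : u c = a ∨ u c = b ∨ u c = c ∨ u c = d) (hd : u d = a ∨ u d = b ∨ u d = c ∨ u d = d) :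
    ∀ y ∈ stab4 G a b c d, u * y * u⁻¹ ∈ stab4 G a b c d := by
  intro y hy
  obtain ⟨hyG, ya, yb, yc, yd⟩ := mem_stab4.mp hy
  have hinv : u⁻¹ = u := inv_eq_of_mul_eq_one_left hu2
  have huu : ∀ x, u (u x) = x := by
    intro x
    rw [← Perm.mul_apply, hu2, Perm.one_apply]
  have hfix : ∀ x, (x = a ∨ x = b ∨ x = c ∨ x = d) → y x = x := by
    rintro x (rfl | rfl | rfl | rfl) <;> assumption
  have key : ∀ x, (u x = a ∨ u x = b ∨ u x = c ∨ u x = d) → (u * y * u⁻¹) x = x := by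
    intro x hx
    rw [hinv, Perm.mul_apply, Perm.mul_apply, hfix (u x) hx, huu]
  exact mem_stab4.mpr ⟨G.mul_mem (G.mul_mem hu hyG) (G.inv_mem hu), key a ha, key b hb, key c hc, key d hd⟩

/-- the key step: replace `t` by an involution in its coset modulo the stabiliser that commutes with `s` -/
theorem key_comm (G : Subgroup (Perm α)) (h : ℕ) (H : Hyp G h) (a b c d : α) (hd : Dist4 a b c d)
    (t s : Perm α) (ht : t ∈ G) (ht2 : t * t = 1) (hs2 : s * s = 1)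
    (hnt : ∀ y ∈ stab4 G a b c d, t * y * t⁻¹ ∈ stab4 G a b c d)
    (hns : ∀ y ∈ stab4 G a b c d, s * y * s⁻¹ ∈ stab4 G a b c d)
    (hts : t * s * t⁻¹ * s⁻¹ ∈ stab4 G a b c d) :
    ∃ u ∈ G, u * u = 1 ∧ u * s = s * u ∧ u a = t a ∧ u b = t b ∧ u c = t c ∧ u d = t d := by
  have hY : Odd (Nat.card (stab4 G a b c d)) := by
    rw [H.card a b c d hd]
    exact H.odd
  obtain ⟨u, hu2, huY, hus⟩ := exists_comm_invol (stab4 G a b c d) hY t s ht2 hs2 hnt hns hts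
  obtain ⟨hG, ya, yb, yc, yd⟩ := mem_stab4.mp huY
  have hu : u = t * (t⁻¹ * u) := by group
  refine ⟨u, ?_, hu2, hus, ?_, ?_, ?_, ?_⟩
  · rw [hu]
    exact G.mul_mem ht hG
  · rw [hu, Perm.mul_apply, ya]
  · rw [hu, Perm.mul_apply, yb]
  · rw [hu, Perm.mul_apply, yc]
  · rw [hu, Perm.mul_apply, yd]

/-- PIECE A2 (first part; uses F) -/
theorem exists_V1 (G : Subgroup (Perm α)) (h : ℕ) (H : Hyp G h) (a b c d : α) (hd : Dist4 a b c d) :
    ∃ y₁ ∈ G, ∃ y₂ ∈ G, y₁ * y₁ = 1 ∧ y₂ * y₂ = 1 ∧ y₁ * y₂ = y₂ * y₁ ∧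
      y₁ a = b ∧ y₁ b = a ∧ y₁ c = c ∧ y₁ d = d ∧ y₂ a = a ∧ y₂ b = b ∧ y₂ c = d ∧ y₂ d = c := by
  obtain ⟨hab, hac, had, hbc, hbd, hcd⟩ := hd
  have hd0 : Dist4 a b c d := ⟨hab, hac, had, hbc, hbd, hcd⟩
  obtain ⟨t, ht, ht2, ta, tb, tc, td⟩ := exists_invol G h H a b c d hd0 b a c d
    ⟨hab.symm, hbc, hbd, hac, had, hcd⟩ (by
      intro g ga gb gc gd
      exact ⟨gb, ga, gc, gd⟩)
  obtain ⟨s, hs, hs2, sa, sb, sc, sd⟩ := exists_invol G h H a b c d hd0 a b d c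
    ⟨hab, had, hac, hbd, hbc, hcd.symm⟩ (by
      intro g ga gb gc gd
      exact ⟨ga, gb, gd, gc⟩)
  have htinv : t⁻¹ = t := inv_eq_of_mul_eq_one_left ht2
  have hsinv : s⁻¹ = s := inv_eq_of_mul_eq_one_left hs2
  have hnt := norm_stab4 G a b c d t ht ht2 (Or.inr (Or.inl ta)) (Or.inl tb) (Or.inr (Or.inr (Or.inl tc)))
    (Or.inr (Or.inr (Or.inr td)))
  have hns := norm_stab4 G a b c d s hs hs2 (Or.inl sa) (Or.inr (Or.inl sb)) (Or.inr (Or.inr (Or.inr sc)))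
    (Or.inr (Or.inr (Or.inl sd)))
  have hts : t * s * t⁻¹ * s⁻¹ ∈ stab4 G a b c d := by
    rw [htinv, hsinv]
    refine mem_stab4.mpr ⟨G.mul_mem (G.mul_mem (G.mul_mem ht hs) ht) hs, ?_, ?_, ?_, ?_⟩ <;>
      simp only [Perm.mul_apply, sa, sb, sc, sd, ta, tb, tc, td]
  obtain ⟨u, hu, hu2, hus, ua, ub, uc, ud⟩ := key_comm G h H a b c d hd0 t s ht ht2 hs2 hnt hns hts
  exact ⟨u, hu, s, hs, hu2, hs2, hus, ua.trans ta, ub.trans tb, uc.trans tc, ud.trans td, sa, sb, sc, sd⟩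

/-- PIECE A2 (second part; uses F) -/
theorem exists_V2 (G : Subgroup (Perm α)) (h : ℕ) (H : Hyp G h) (a b c d : α) (hd : Dist4 a b c d) :
    ∃ z₁ ∈ G, ∃ z₂ ∈ G, z₁ * z₁ = 1 ∧ z₂ * z₂ = 1 ∧ z₁ * z₂ = z₂ * z₁ ∧
      z₁ a = b ∧ z₁ b = a ∧ z₁ c = d ∧ z₁ d = c ∧ z₂ a = c ∧ z₂ c = a ∧ z₂ b = d ∧ z₂ d = b := by
  obtain ⟨hab, hac, had, hbc, hbd, hcd⟩ := hd
  have hd0 : Dist4 a b c d := ⟨hab, hac, had, hbc, hbd, hcd⟩
  obtain ⟨t, ht, ht2, ta, tb, tc, td⟩ := exists_invol G h H a b c d hd0 b a d c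
    ⟨hab.symm, hbd, hbc, had, hac, hcd.symm⟩ (by
      intro g ga gb gc gd
      exact ⟨gb, ga, gd, gc⟩)
  obtain ⟨s, hs, hs2, sa, sb, sc, sd⟩ := exists_invol G h H a b c d hd0 c d a b
    ⟨hcd, hac.symm, hbc.symm, had.symm, hbd.symm, hab⟩ (by
      intro g ga gb gc gd
      exact ⟨gc, gd, ga, gb⟩)
  have htinv : t⁻¹ = t := inv_eq_of_mul_eq_one_left ht2
  have hsinv : s⁻¹ = s := inv_eq_of_mul_eq_one_left hs2
  have hnt := norm_stab4 G a b c d t ht ht2 (Or.inr (Or.inl ta)) (Or.inl tb) (Or.inr (Or.inr (Or.inr tc)))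
    (Or.inr (Or.inr (Or.inl td)))
  have hns := norm_stab4 G a b c d s hs hs2 (Or.inr (Or.inr (Or.inl sa))) (Or.inr (Or.inr (Or.inr sb)))
    (Or.inl sc) (Or.inr (Or.inl sd))
  have hts : t * s * t⁻¹ * s⁻¹ ∈ stab4 G a b c d := by
    rw [htinv, hsinv]
    refine mem_stab4.mpr ⟨G.mul_mem (G.mul_mem (G.mul_mem ht hs) ht) hs, ?_, ?_, ?_, ?_⟩ <;>
      simp only [Perm.mul_apply, sa, sb, sc, sd, ta, tb, tc, td]
  obtain ⟨u, hu, hu2, hus, ua, ub, uc, ud⟩ := key_comm G h H a b c d hd0 t s ht ht2 hs2 hnt hns hts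
  exact ⟨u, hu, s, hs, hu2, hs2, hus, ua.trans ta, ub.trans tb, uc.trans tc, ud.trans td, sa, sc, sb, sd⟩

/-- PIECE A2 (third part; uses F) -/
theorem exists_V1_mul_eq (G : Subgroup (Perm α)) (h : ℕ) (H : Hyp G h) (a b c d : α) (hd : Dist4 a b c d)
    (t : Perm α) (ht : t ∈ invA G a b c d) :
    ∃ y₁ ∈ G, ∃ y₂ ∈ G, y₁ * y₁ = 1 ∧ y₂ * y₂ = 1 ∧ y₁ * y₂ = y₂ * y₁ ∧ y₁ * y₂ = t ∧
      y₁ a = b ∧ y₁ b = a ∧ y₁ c = c ∧ y₁ d = d ∧ y₂ a = a ∧ y₂ b = b ∧ y₂ c = d ∧ y₂ d = c := by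
  obtain ⟨hab, hac, had, hbc, hbd, hcd⟩ := hd
  have hd0 : Dist4 a b c d := ⟨hab, hac, had, hbc, hbd, hcd⟩
  obtain ⟨htG, ht2, ta, tc⟩ := ht
  have tb : t b = a := by
    rw [← ta, ← Perm.mul_apply, ht2, Perm.one_apply]
  have td : t d = c := by
    rw [← tc, ← Perm.mul_apply, ht2, Perm.one_apply]
  obtain ⟨s, hs, hs2, sa, sb, sc, sd⟩ := exists_invol G h H a b c d hd0 b a c d
    ⟨hab.symm, hbc, hbd, hac, had, hcd⟩ (by
      intro g ga gb gc gd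
      exact ⟨gb, ga, gc, gd⟩)
  have htinv : t⁻¹ = t := inv_eq_of_mul_eq_one_left ht2
  have hsinv : s⁻¹ = s := inv_eq_of_mul_eq_one_left hs2
  have hnt := norm_stab4 G a b c d t htG ht2 (Or.inr (Or.inl ta)) (Or.inl tb) (Or.inr (Or.inr (Or.inr tc)))
    (Or.inr (Or.inr (Or.inl td)))
  have hns := norm_stab4 G a b c d s hs hs2 (Or.inr (Or.inl sa)) (Or.inl sb) (Or.inr (Or.inr (Or.inl sc)))
    (Or.inr (Or.inr (Or.inr sd)))
  have hst : s * t * s⁻¹ * t⁻¹ ∈ stab4 G a b c d := by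
    rw [htinv, hsinv]
    refine mem_stab4.mpr ⟨G.mul_mem (G.mul_mem (G.mul_mem hs htG) hs) htG, ?_, ?_, ?_, ?_⟩ <;>
      simp only [Perm.mul_apply, sa, sb, sc, sd, ta, tb, tc, td]
  obtain ⟨u, hu, hu2, hut, ua, ub, uc, ud⟩ := key_comm G h H a b c d hd0 s t hs hs2 ht2 hns hnt hst
  refine ⟨u, hu, u * t, G.mul_mem hu htG, hu2, ?_, ?_, ?_, ua.trans sa, ub.trans sb, uc.trans sc,
    ud.trans sd, ?_, ?_, ?_, ?_⟩
  · calc u * t * (u * t) = u * (t * u) * t := by group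
      _ = u * (u * t) * t := by rw [hut]
      _ = (u * u) * (t * t) := by group
      _ = 1 := by rw [hu2, ht2, one_mul]
  · calc u * (u * t) = u * (t * u) := by rw [hut]
      _ = u * t * u := by group
  · rw [← mul_assoc, hu2, one_mul]
  · rw [Perm.mul_apply, ta, ub.trans sb]
  · rw [Perm.mul_apply, tb, ua.trans sa]
  · rw [Perm.mul_apply, tc, ud.trans sd]
  · rw [Perm.mul_apply, td, uc.trans sc]

end Cfsg.Agent.Helper50.H581A2
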