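import Mathlib
import Cfsg.Agent.Lead.H581Defs

/-!
CALL S4221 (Hall 5.8.1), PIECE E3c (helper50): in degree at least `8` the group `G` contains no 3-cycle.
A 3-cycle `g = (x y z)` and its conjugate `(x w z)` under an element of `G` multiply to the involution
`(x w)(y z)`, which fixes four further points: an element of even order in a group of odd order.
-/

set_option autoImplicit false

namespace Cfsg.Agent.Helper50.H581E3c

open Cfsg.Agent.Lead.H581 Equiv

variable {α : Type*} [Fintype α] [DecidableEq α]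

/-- a point outside a small finset -/
theorem exists_notMem_of_card_lt (S : Finset α) (hS : S.card < Fintype.card α) : ∃ e : α, e ∉ S := by
  by_contra hcon
  rw [not_exists] at hcon
  have hcon : ∀ e : α, e ∈ S := fun e => not_not.mp (hcon e)
  have h1 : S = Finset.univ := Finset.eq_univ_iff_forall.mpr hcon
  rw [h1, Finset.card_univ] at hS
  exact lt_irrefl _ hS

/-- an element of a stabiliser of four points cannot interchange two points -/
theorem no_swap_in_stab4 (G : Subgroup (Perm α)) (h : ℕ) (H : Hyp G h) (a b c d : α) (hd : Dist4 a b c d)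
    (u : Perm α) (hu : u ∈ stab4 G a b c d) (x w : α) (hxw : x ≠ w) (ux : u x = w) (uw : u w = x) : False := by
  obtain ⟨m, hm⟩ := H.odd
  have hcard := H.card a b c d hd
  have hpow : u ^ h = 1 := by
    have h1 : (⟨u, hu⟩ : stab4 G a b c d) ^ Nat.card (stab4 G a b c d) = 1 := pow_card_eq_one'
    rw [hcard] at h1
    have h2 := congrArg Subtype.val h1
    simpa using h2
  have h2 : (u ^ 2) x = x := by
    rw [pow_two, Perm.mul_apply, ux, uw]
  have h3 : ((u ^ 2) ^ m) x = x := Perm.pow_apply_eq_self_of_apply_eq_self h2 m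
  have h4 : (u ^ h) x = w := by
    rw [hm, pow_succ', pow_mul, Perm.mul_apply, h3, ux]
  rw [hpow, Perm.one_apply] at h4
  exact hxw h4

/-- PIECE E3c -/
theorem no_three_cycle (G : Subgroup (Perm α)) (h : ℕ) (H : Hyp G h) (hn : 8 ≤ Fintype.card α) (g : Perm α)
    (hg : g ∈ G) (h3 : g.IsThreeCycle) : False := by
  have hcard := h3.card_support
  have hne : g.support.Nonempty := by
    rw [← Finset.card_pos, hcard]
    norm_num
  obtain ⟨x, hx⟩ := hne
  have hgx : g x ≠ x := Perm.mem_support.mp hx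
  have hg3 : g ^ 3 = 1 := by
    rw [← h3.orderOf]
    exact pow_orderOf_eq_one g
  obtain ⟨y, hy⟩ : ∃ y, g x = y := ⟨_, rfl⟩
  obtain ⟨z, hz⟩ : ∃ z, g y = z := ⟨_, rfl⟩
  have hzx : g z = x := by
    have h1 : (g ^ 3) x = x := by rw [hg3, Perm.one_apply]
    have h2 : (g ^ 3) x = g (g (g x)) := by
      rw [pow_succ, pow_two, Perm.mul_apply, Perm.mul_apply]
    rw [h2, hy, hz] at h1
    exact h1
  have hxy : x ≠ y := fun e => hgx (hy.trans e.symm)
  have hyz : y ≠ z := by
    intro e
    apply hxy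
    apply g.injective
    rw [hy, hz]
    exact e
  have hxz : x ≠ z := by
    intro e
    apply hgx
    rw [e]
    exact hzx.trans e
  -- the support of `g`
  have hsub : ({x, y, z} : Finset α) ⊆ g.support := by
    intro v hv
    simp only [Finset.mem_insert, Finset.mem_singleton] at hv
    rw [Perm.mem_support]
    rcases hv with rfl | rfl | rfl
    · exact hgx
    · rw [hz]; exact fun e => hyz e.symm
    · rw [hzx]; exact hxz
  have hc3 : ({x, y, z} : Finset α).card = 3 := by
    rw [Finset.card_insert_of_notMem, Finset.card_insert_of_notMem, Finset.card_singleton]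
    · simpa using hyz
    · simp only [Finset.mem_insert, Finset.mem_singleton, not_or]
      exact ⟨hxy, hxz⟩
  have hsupp : g.support = {x, y, z} := by
    symm
    apply Finset.eq_of_subset_of_card_le hsub
    rw [hcard, hc3]
  have hfix : ∀ v, v ≠ x → v ≠ y → v ≠ z → g v = v := by
    intro v h1 h2 h3
    rw [← Perm.notMem_support, hsupp]
    simp only [Finset.mem_insert, Finset.mem_singleton, not_or]
    exact ⟨h1, h2, h3⟩
  -- a fourth point
  obtain ⟨w, hw⟩ := exists_notMem_of_card_lt ({x, y, z} : Finset α) (by rw [hc3]; omega)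
  simp only [Finset.mem_insert, Finset.mem_singleton, not_or] at hw
  obtain ⟨hwx, hwy, hwz⟩ := hw
  obtain ⟨k, hk, kx, ky, kz, kw⟩ := H.trans x y z w x w z y
    ⟨hxy, hxz, fun e => hwx e.symm, hyz, fun e => hwy e.symm, fun e => hwz e.symm⟩
    ⟨fun e => hwx e.symm, hxz, hxy, hwz, hwy, fun e => hyz e.symm⟩
  have kix : k⁻¹ x = x := Perm.inv_eq_iff_eq.mpr kx.symm
  have kiw : k⁻¹ w = y := Perm.inv_eq_iff_eq.mpr ky.symm
  have kiz : k⁻¹ z = z := Perm.inv_eq_iff_eq.mpr kz.symm
  have kiy : k⁻¹ y = w := Perm.inv_eq_iff_eq.mpr kw.symm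
  have hgw : g w = w := hfix w hwx hwy hwz
  have hu : g * (k * g * k⁻¹) ∈ G := G.mul_mem hg (G.mul_mem (G.mul_mem hk hg) (G.inv_mem hk))
  have ux : (g * (k * g * k⁻¹)) x = w := by
    simp only [Perm.mul_apply, kix, hy, ky, hgw]
  have uw : (g * (k * g * k⁻¹)) w = x := by
    simp only [Perm.mul_apply, kiw, hz, kz, hzx]
  have uv : ∀ v, v ≠ x → v ≠ y → v ≠ z → v ≠ w → (g * (k * g * k⁻¹)) v = v := by
    intro v h1 h2 h3 h4
    have e1 : g (k⁻¹ v) = k⁻¹ v := by
      apply hfix
      · intro e
        apply h1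
        rw [Perm.inv_eq_iff_eq] at e
        rw [e, kx]
      · intro e
        apply h4
        rw [Perm.inv_eq_iff_eq] at e
        rw [e, ky]
      · intro e
        apply h3
        rw [Perm.inv_eq_iff_eq] at e
        rw [e, kz]
    have e2 : k (k⁻¹ v) = v := by rw [← Perm.mul_apply, mul_inv_cancel, Perm.one_apply]
    simp only [Perm.mul_apply, e1, e2]
    exact hfix v h1 h2 h3
  -- four further points
  have hS0 : ({x, y, z, w} : Finset α).card ≤ 4 := Finset.card_le_four
  obtain ⟨a, ha⟩ := exists_notMem_of_card_lt ({x, y, z, w} : Finset α) (by omega)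
  have hS1 : (insert a ({x, y, z, w} : Finset α)).card ≤ 5 :=
    (Finset.card_insert_le _ _).trans (by omega)
  obtain ⟨b, hb⟩ := exists_notMem_of_card_lt (insert a ({x, y, z, w} : Finset α)) (by omega)
  have hS2 : (insert b (insert a ({x, y, z, w} : Finset α))).card ≤ 6 :=
    (Finset.card_insert_le _ _).trans (by omega)
  obtain ⟨c, hc⟩ := exists_notMem_of_card_lt (insert b (insert a ({x, y, z, w} : Finset α))) (by omega)
  have hS3 : (insert c (insert b (insert a ({x, y, z, w} : Finset α)))).card ≤ 7 :=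
    (Finset.card_insert_le _ _).trans (by omega)
  obtain ⟨d, hd⟩ := exists_notMem_of_card_lt (insert c (insert b (insert a ({x, y, z, w} : Finset α))))
    (by omega)
  simp only [Finset.mem_insert, Finset.mem_singleton, not_or] at ha hb hc hd
  obtain ⟨ha1, ha2, ha3, ha4⟩ := ha
  obtain ⟨hba, hb1, hb2, hb3, hb4⟩ := hb
  obtain ⟨hcb, hca, hc1, hc2, hc3', hc4⟩ := hc
  obtain ⟨hdc, hdb, hda, hd1, hd2, hd3, hd4⟩ := hd
  have hD : Dist4 a b c d := ⟨fun e => hba e.symm, fun e => hca e.symm, fun e => hda e.symm,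
    fun e => hcb e.symm, fun e => hdb e.symm, fun e => hdc e.symm⟩
  have hmem : g * (k * g * k⁻¹) ∈ stab4 G a b c d :=
    mem_stab4.mpr ⟨hu, uv a ha1 ha2 ha3 ha4, uv b hb1 hb2 hb3 hb4, uv c hc1 hc2 hc3' hc4, uv d hd1 hd2 hd3 hd4⟩
  exact no_swap_in_stab4 G h H a b c d hD _ hmem x w (fun e => hwx e.symm) ux uw

end Cfsg.Agent.Helper50.H581E3c
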