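import Mathlib
import Cfsg.Agent.Helper96.OHDefs
import Cfsg.Agent.Helper69.ODDefs
import Cfsg.Agent.Helper50.TSR2SPLA
import Cfsg.Agent.Helper33.ODDSSUB

set_option autoImplicit false
set_option linter.unusedSectionVars false
set_option linter.unusedVariables false

/-!
# CALL OD (helper69; rows S5989 + S5991), piece DGOOD2 (`od_good_two`), by helper50

An involutory isometry fixes a nondegenerate `m`-space of either discriminant class (`2 m < |ι|`):
one of its two eigenspaces has dimension `> m` (`r2_split`), DSSUB inside it.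
-/

namespace Cfsg.Agent.Helper50.OD59

open Module Polynomial Cfsg Cfsg.Geo
open Cfsg.Agent.Helper13.TIu Cfsg.Agent.Helper96.OH Cfsg.Agent.Helper69.OD
open scoped MatrixGroups

variable {ι : Type} [Fintype ι] [DecidableEq ι] {F : Type*} [Field F] (Q : (ι → F) → F)

/-- DGOOD2 [M] (uses `r2_split` of CALL TSR2 (SPLA: Helper50/TSR2SPLA.lean) and DSSUB): an involutory
isometry has nondegenerate eigenspaces `Vp = ker (toLin' M - 1)`, `Vm = ker (toLin' M + 1)` with
`finrank Vp + finrank Vm = |ι| > 2 m`; one of them has dimension `> m`; DSSUB inside it; every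
subspace of `Vp` and of `Vm` is invariant. -/
theorem od_good_two [Fintype F] (hQ : IsNondegenerateQuadraticForm Q) (h2 : (2 : F) ≠ 0)
    (M : Matrix ι ι F) (hM : ∀ v, Q (M.mulVec v) = Q v) (hM2 : M * M = 1) (m : ℕ) (hm0 : 0 < m)
    (hmn : 2 * m < Fintype.card ι) (b : Prop) :
    ∃ W : Submodule F (ι → F), (finrank F W = m ∧ ONd Q W ∧ (ODs Q W ↔ b)) ∧
      W.map (Matrix.toLin' M) ≤ W := by
  obtain ⟨hp, hmi, hsum, -⟩ := Cfsg.Agent.Helper50.TSR2.r2_split Q hQ h2 M hM hM2
  by_cases hlt : m < finrank F (LinearMap.ker (Matrix.toLin' M - 1))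
  · obtain ⟨X, hXK, hX, hXm, hXb⟩ :=
      Cfsg.Agent.Helper33.OD59.ods_sub Q hQ h2 _ hp m hm0 hlt b
    refine ⟨X, ⟨hXm, hX, hXb⟩, ?_⟩
    rintro _ ⟨v, hv, rfl⟩
    have h1 := hXK hv
    rw [LinearMap.mem_ker, LinearMap.sub_apply, Module.End.one_apply, sub_eq_zero] at h1
    rw [h1]
    exact hv
  · have hlt' : m < finrank F (LinearMap.ker (Matrix.toLin' M + 1)) := by omega
    obtain ⟨X, hXK, hX, hXm, hXb⟩ :=
      Cfsg.Agent.Helper33.OD59.ods_sub Q hQ h2 _ hmi m hm0 hlt' b
    refine ⟨X, ⟨hXm, hX, hXb⟩, ?_⟩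
    rintro _ ⟨v, hv, rfl⟩
    have h1 := hXK hv
    rw [LinearMap.mem_ker, LinearMap.add_apply, Module.End.one_apply, add_eq_zero_iff_eq_neg]
      at h1
    rw [h1]
    exact X.neg_mem hv

end Cfsg.Agent.Helper50.OD59
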