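import Mathlib
import Cfsg.Agent.Helper96.OHDefs
import Cfsg.Agent.Helper69.ODDefs
import Cfsg.Agent.Helper70.TSR2Z
import Cfsg.Agent.Helper70.OHONONISO
import Cfsg.Agent.Helper50.ODDGOOD2
import Cfsg.Agent.Helper33.ODDSISO2
import Cfsg.Agent.Helper52.ODDSKEVEN

set_option autoImplicit false
set_option linter.unusedSectionVars false
set_option linter.unusedVariables false

/-!
# CALL OD (helper69; rows S5989 + S5991), piece R2GEN (`od_two_iff`), by helper50

For `r = 2` every element fixes a member iff `Ω` has no skew element.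
-/

namespace Cfsg.Agent.Helper50.OD59

open Module Polynomial Cfsg Cfsg.Geo
open Cfsg.Agent.Helper13.TIu Cfsg.Agent.Helper96.OH Cfsg.Agent.Helper69.OD
open scoped MatrixGroups

variable {ι : Type} [Fintype ι] [DecidableEq ι] {F : Type*} [Field F] (Q : (ι → F) → F)

/-- R2GEN [M] (uses `r2_z` (Helper70/TSR2Z.lean), DGOOD2 with `b := ODs Q W₀`, DSISO2, DSKEVEN,
ONONISO; `omegaGL Q = (Omega F Q).map (isometryGroup F Q).subtype`): for `r = 2` everything fixes a
member iff `Ω` has no skew element.  `x² = z • 1` gives `z = ± 1`; `z = 1`: DGOOD2 (`2 m < 2 d`);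
`z = -1`: `x` is a skew element of `Ω`.  Conversely a skew `g ∈ Ω` is not scalar (`g = z • 1` would
give `z² = -1` and `Q (z • v) = -Q v`) and fixes no nondegenerate subspace of odd dimension (DSKEVEN). -/
theorem od_two_iff [Fintype F] (hQ : IsNondegenerateQuadraticForm Q) (h2 : (2 : F) ≠ 0)
    (d m : ℕ) (hcard : Fintype.card ι = 2 * d) (hmo : Odd m) (hmd : m < d)
    (W₀ : Submodule F (ι → F)) (hW₀ : finrank F W₀ = m ∧ ONd Q W₀) :
    (∀ x : GL ι F, x ∈ Cfsg.Geo.omegaGL Q →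
      (∃ z : F, ((x ^ 2 : GL ι F) : Matrix ι ι F) = z • (1 : Matrix ι ι F)) →
      (∀ z : F, (x : Matrix ι ι F) ≠ z • (1 : Matrix ι ι F)) →
      ∃ W : Submodule F (ι → F), (finrank F W = m ∧ ONd Q W ∧ AreIsometricFor Q W W₀) ∧
        W.map (Matrix.toLin' (x : Matrix ι ι F)) ≤ W) ↔
    ¬ ∃ g : ↥(Cfsg.isometryGroup F Q), g ∈ Cfsg.Omega F Q ∧
      ((g : GL ι F) : Matrix ι ι F) * ((g : GL ι F) : Matrix ι ι F) = -1 := by
  have hne : Nonempty ι := by
    apply Fintype.card_pos_iff.mp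
    omega
  have hiso : ∀ x : GL ι F, x ∈ Cfsg.isometryGroup F Q →
      ∀ v, Q ((x : Matrix ι ι F).mulVec v) = Q v := fun x hx v => hx v v
  have htop : (⊤ : Submodule F (ι → F)) ≠ ⊥ := by
    intro h
    have h1 : finrank F (⊤ : Submodule F (ι → F)) = 0 := by rw [h, finrank_bot]
    rw [finrank_top, Module.finrank_fintype_fun_eq_card, hcard] at h1
    omega
  obtain ⟨v₀, -, hv₀⟩ := Cfsg.Agent.Helper70.OH5992.o_noniso Q hQ ⊤ (ond_top Q hQ) htop
  constructor
  · rintro H ⟨g, hgΩ, hg2⟩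
    have hx : (g : GL ι F) ∈ Cfsg.Geo.omegaGL Q := ⟨g, hgΩ, rfl⟩
    have hsq : ∃ z : F, (((g : GL ι F) ^ 2 : GL ι F) : Matrix ι ι F) =
        z • (1 : Matrix ι ι F) := by
      refine ⟨-1, ?_⟩
      rw [pow_two, Units.val_mul, hg2, neg_smul, one_smul]
    have hns : ∀ z : F, ((g : GL ι F) : Matrix ι ι F) ≠ z • (1 : Matrix ι ι F) := by
      intro z hz
      have h1 := hiso g g.2 v₀
      rw [hz, Matrix.smul_mulVec, Matrix.one_mulVec, hQ.smul] at h1
      have h3 : z * z = -1 := by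
        have h4 := hg2
        rw [hz] at h4
        obtain ⟨j⟩ := hne
        have h5 := congrFun (congrFun h4 j) j
        simpa using h5
      have h5 : (2 : F) * Q v₀ = 0 := by linear_combination (-1 : F) * h1 + Q v₀ * h3
      exact hv₀ ((mul_eq_zero.mp h5).resolve_left h2)
    obtain ⟨W, ⟨hWm, hWnd, -⟩, hWT⟩ := H g hx hsq hns
    have hev := Cfsg.Agent.Helper52.OD59.od_skew_even Q hQ h2 _ (hiso g g.2) hg2 W hWT hWnd
    rw [hWm] at hev
    exact (Nat.not_even_iff_odd.mpr hmo) hev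
  · rintro hno x hx ⟨z, hz⟩ hns
    obtain ⟨g, hgΩ, hgx⟩ := hx
    have hgx' : (g : GL ι F) = x := hgx
    have hxiso : x ∈ Cfsg.isometryGroup F Q := hgx' ▸ g.2
    have hxx : (x : Matrix ι ι F) * (x : Matrix ι ι F) = z • (1 : Matrix ι ι F) := by
      rw [← hz, pow_two, Units.val_mul]
    rcases Cfsg.Agent.Helper70.TSR2.r2_z Q hQ hne _ (hiso x hxiso) z hxx with rfl | rfl
    · rw [one_smul] at hxx
      have hm0 : 0 < m := by
        obtain ⟨k, hk⟩ := hmo
        omega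
      obtain ⟨W, ⟨hWm, hWnd, hWb⟩, hWT⟩ :=
        od_good_two Q hQ h2 _ (hiso x hxiso) hxx m hm0 (by omega) (ODs Q W₀)
      refine ⟨W, ⟨hWm, hWnd, ?_⟩, hWT⟩
      exact Cfsg.Agent.Helper33.OD59.iso_of_ods Q hQ h2 W W₀ hWnd hW₀.2 (by rw [hWm, hW₀.1]) hWb
    · exfalso
      apply hno
      refine ⟨g, hgΩ, ?_⟩
      rw [hgx', hxx, neg_smul, one_smul]

end Cfsg.Agent.Helper50.OD59
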