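import Mathlib
import Cfsg.Prelude.Def_GeometricClasses
import Cfsg.Prelude.Def_Classical
import Cfsg.Agent.Helper58.TSDefs
import Cfsg.Agent.Helper98.OPar
import Cfsg.Agent.Helper47.HTHORTH
import Cfsg.Agent.Helper50.TSR2SPLA

set_option autoImplicit false

/-!
# Sub-CALL TSR2 (helper90), piece SKBASIS (`r2_skew_basis`), by helper50

`M² = -1` for an isometry `M` of a nondegenerate quadratic space of dimension `2d` (odd
characteristic): the space is an orthogonal sum of `d` planes `⟨v j, M v j⟩` with `Q (v j) ≠ 0`.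
-/

namespace Cfsg.Agent.Helper50.TSR2

open Module Cfsg Cfsg.Geo Cfsg.Agent.Helper58.TS Cfsg.Agent.Helper90.HT
open scoped MatrixGroups

section abstract

variable {F : Type*} [Field F] {V : Type*} [AddCommGroup V] [Module F V] [FiniteDimensional F V]
  (h : V → V → F)

omit [FiniteDimensional F V] in
/-- `B(u, T u) = 0` when `T² = -1` -/
theorem skb_orth (hh : IsHerm (RingHom.id F) h) (h2 : (2 : F) ≠ 0) (T : Module.End F V)
    (hT : HPres h T) (hT2 : ∀ v, T (T v) = -v) (u : V) : h u (T u) = 0 := by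
  have h1 := hT u (T u)
  rw [hT2, hh.neg_right, hh.symm u (T u)] at h1
  simp only [RingHom.id_apply] at h1
  have h3 : (2 : F) * h u (T u) = 0 := by linear_combination -h1
  exact (mul_eq_zero.mp h3).resolve_left h2

omit [FiniteDimensional F V] in
/-- orthogonality to the plane `⟨u, T u⟩` -/
theorem skb_span (hh : IsHerm (RingHom.id F) h) (T : Module.End F V) (u v : V)
    (h1 : h v u = 0) (h3 : h v (T u) = 0) :
    ∀ w ∈ Submodule.span F (Set.range ![u, T u]), h v w = 0 := by
  intro w hw
  induction hw using Submodule.span_induction with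
  | mem x hx =>
    obtain ⟨i, rfl⟩ := hx
    fin_cases i
    · exact h1
    · exact h3
  | zero => exact hh.zero_right v
  | add x y _ _ hx hy => rw [hh.add_right, hx, hy, add_zero]
  | smul a x _ hx => rw [hh.smul_right, hx, mul_zero]

/-- the induction: an invariant nondegenerate subspace of dimension `2k` -/
theorem skb_aux (hh : IsHerm (RingHom.id F) h) (h2 : (2 : F) ≠ 0) (T : Module.End F V)
    (hT : HPres h T) (hT2 : ∀ v, T (T v) = -v) :
    ∀ (k : ℕ) (D : Submodule F V), D.map T ≤ D → HNondegOn h D → finrank F D = 2 * k →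
      ∃ v : Fin k → V, (∀ j, v j ∈ D) ∧ (∀ j, h (v j) (v j) ≠ 0) ∧
        ∀ j l, j ≠ l → h (v j) (v l) = 0 ∧ h (v j) (T (v l)) = 0 := by
  intro k
  induction k with
  | zero =>
    intro D _ _ _
    exact ⟨Fin.elim0, fun j => j.elim0, fun j => j.elim0, fun j => j.elim0⟩
  | succ k ih =>
    intro D hDT hD hfr
    have hTD : ∀ x ∈ D, T x ∈ D := fun x hx => hDT (Submodule.mem_map_of_mem hx)
    -- a nonsingular vector of `D`
    obtain ⟨u, huD, hu0⟩ : ∃ u ∈ D, h u u ≠ 0 := by
      by_contra hcon
      push Not at hcon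
      have hpos : 0 < finrank F D := by omega
      obtain ⟨⟨x, hxD⟩, hx0⟩ := (Module.finrank_pos_iff_exists_ne_zero (R := F) (M := D)).mp hpos
      apply hx0
      apply Subtype.ext
      show x = 0
      apply hD x hxD
      intro w hw
      have h1 := hcon (x + w) (D.add_mem hxD hw)
      rw [hh.add_left, hh.add_right, hh.add_right, hcon x hxD, hcon w hw, hh.symm x w] at h1
      simp only [RingHom.id_apply] at h1
      have h3 : (2 : F) * h x w = 0 := by linear_combination h1
      exact (mul_eq_zero.mp h3).resolve_left h2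
    have huT : h u (T u) = 0 := skb_orth h hh h2 T hT hT2 u
    have hTu : h (T u) u = 0 := hh.eq_zero_symm huT
    have hTT : h (T u) (T u) = h u u := hT u u
    -- the plane
    have hli : LinearIndependent F ![u, T u] := by
      rw [LinearIndependent.pair_iff]
      intro s t hst
      have h1 : h (s • u + t • T u) u = 0 := by rw [hst, hh.zero_left]
      have h3 : h (s • u + t • T u) (T u) = 0 := by rw [hst, hh.zero_left]
      rw [hh.add_left, hh.smul_left, hh.smul_left, hTu, mul_zero, add_zero] at h1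
      rw [hh.add_left, hh.smul_left, hh.smul_left, huT, mul_zero, zero_add, hTT] at h3
      exact ⟨(mul_eq_zero.mp h1).resolve_right hu0, (mul_eq_zero.mp h3).resolve_right hu0⟩
    have hWfr : finrank F (Submodule.span F (Set.range ![u, T u])) = 2 := by
      rw [finrank_span_eq_card hli, Fintype.card_fin]
    have hWD : Submodule.span F (Set.range ![u, T u]) ≤ D := by
      rw [Submodule.span_le]
      rintro _ ⟨i, rfl⟩
      fin_cases i
      · exact huD
      · exact hTD u huD
    have huW : u ∈ Submodule.span F (Set.range ![u, T u]) :=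
      Submodule.subset_span ⟨0, rfl⟩
    have hTuW : T u ∈ Submodule.span F (Set.range ![u, T u]) :=
      Submodule.subset_span ⟨1, rfl⟩
    obtain ⟨P, hP, hPfr⟩ := Cfsg.Agent.Helper47.HT5953.ht_orth (RingHom.id F) h hh D _ hD hWD
    have hPmem : ∀ v, v ∈ P ↔ v ∈ D ∧ h v u = 0 ∧ h v (T u) = 0 := by
      intro v
      rw [hP]
      constructor
      · rintro ⟨hvD, hv⟩
        exact ⟨hvD, hv u huW, hv _ hTuW⟩
      · rintro ⟨hvD, hv1, hv2⟩
        exact ⟨hvD, skb_span h hh T u v hv1 hv2⟩
    have hPT' : ∀ v ∈ P, T v ∈ P := by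
      intro v hv
      obtain ⟨hvD, hv1, hv2⟩ := (hPmem v).mp hv
      refine (hPmem _).mpr ⟨hTD v hvD, ?_, ?_⟩
      · have h1 := hT (T v) u
        rw [hT2, hh.neg_left, hv2, neg_zero] at h1
        exact h1.symm
      · rw [hT v u]
        exact hv1
    have hPT : P.map T ≤ P := by
      rintro _ ⟨v, hv, rfl⟩
      exact hPT' v hv
    have hPnd : HNondegOn h P := by
      intro v hv hv0
      obtain ⟨hvD, hv1, hv2⟩ := (hPmem v).mp hv
      apply hD v hvD
      intro x hx
      have hx' : x - (h x u / h u u) • u - (h x (T u) / h u u) • T u ∈ P := by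
        refine (hPmem _).mpr ⟨D.sub_mem (D.sub_mem hx (D.smul_mem _ huD))
          (D.smul_mem _ (hTD u huD)), ?_, ?_⟩
        · rw [hh.sub_left, hh.sub_left, hh.smul_left, hh.smul_left, hTu]
          field_simp
          ring
        · rw [hh.sub_left, hh.sub_left, hh.smul_left, hh.smul_left, huT, hTT]
          field_simp
          ring
      have h1 := hv0 _ hx'
      rw [hh.sub_right, hh.sub_right, hh.smul_right, hh.smul_right, hv1, hv2] at h1
      simpa using h1
    have hPfr' : finrank F P = 2 * k := by omega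
    obtain ⟨v', hv'P, hv'0, hv'orth⟩ := ih P hPT hPnd hPfr'
    have hPD : ∀ v ∈ P, v ∈ D := fun v hv => ((hPmem v).mp hv).1
    refine ⟨Fin.cons u v', ?_, ?_, ?_⟩
    · intro j
      refine Fin.cases ?_ (fun j' => ?_) j
      · simpa using huD
      · simpa using hPD _ (hv'P j')
    · intro j
      refine Fin.cases ?_ (fun j' => ?_) j
      · simpa using hu0
      · simpa using hv'0 j'
    · intro j l
      refine Fin.cases ?_ (fun j' => ?_) j
      · refine Fin.cases ?_ (fun l' => ?_) l
        · intro hne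
          exact absurd rfl hne
        · intro _
          simp only [Fin.cons_zero, Fin.cons_succ]
          obtain ⟨-, hv1, -⟩ := (hPmem _).mp (hv'P l')
          obtain ⟨-, hv3, -⟩ := (hPmem _).mp (hPT' _ (hv'P l'))
          exact ⟨hh.eq_zero_symm hv1, hh.eq_zero_symm hv3⟩
      · refine Fin.cases ?_ (fun l' => ?_) l
        · intro _
          simp only [Fin.cons_zero, Fin.cons_succ]
          obtain ⟨-, hv1, hv2⟩ := (hPmem _).mp (hv'P j')
          exact ⟨hv1, hv2⟩
        · intro hne
          simp only [Fin.cons_succ]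
          exact hv'orth j' l' (fun hjl => hne (by rw [hjl]))

end abstract

section pieces

variable {ι : Type} [Fintype ι] [DecidableEq ι] {F : Type*} [Field F] [Fintype F]

/-- SKBASIS [L]: `V` is the orthogonal sum of `d` invariant anisotropic planes `⟨v j, M v j⟩`
(induction: in an invariant nondegenerate subspace `D ≠ 0` pick `v` with `Q v ≠ 0`; `⟨v, M v⟩` is
invariant and nondegenerate (`Q (a v + b M v) = (a² + b²) Q v`), pass to its perp in `D`). -/
theorem r2_skew_basis (Q : (ι → F) → F) (hQ : IsNondegenerateQuadraticForm Q) (h2 : (2 : F) ≠ 0)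
    (d : ℕ) (hcard : Fintype.card ι = 2 * d) (M : Matrix ι ι F) (hM : ∀ v, Q (M.mulVec v) = Q v)
    (hM2 : M * M = -1) (hm1 : ¬ IsSquare (-1 : F)) :
    ∃ v : Fin d → (ι → F), (∀ j, Q (v j) ≠ 0) ∧
      ∀ j l, j ≠ l → QuadraticMap.polar Q (v j) (v l) = 0 ∧
        QuadraticMap.polar Q (v j) (M.mulVec (v l)) = 0 := by
  have hT2 : ∀ v : ι → F, (Matrix.toLin' M) ((Matrix.toLin' M) v) = -v := by
    intro v
    rw [Matrix.toLin'_apply, Matrix.toLin'_apply, Matrix.mulVec_mulVec, hM2, Matrix.neg_mulVec,
      Matrix.one_mulVec]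
  have hnd : HNondegOn (Cfsg.Agent.Helper43.OT.ph (Cfsg.Agent.Helper98.op_qf Q hQ))
      (⊤ : Submodule F (ι → F)) := by
    intro v _ hv
    exact r2_ph_nondeg Q hQ v (fun w => hv w Submodule.mem_top)
  obtain ⟨v, -, hv0, hvorth⟩ := skb_aux (Cfsg.Agent.Helper43.OT.ph (Cfsg.Agent.Helper98.op_qf Q hQ))
    (Cfsg.Agent.Helper43.OT.isHerm_ph _) h2 (Matrix.toLin' M) (r2_hpres Q hQ M hM) hT2 d ⊤ le_top
    hnd (by rw [finrank_top, Module.finrank_fintype_fun_eq_card, hcard])
  refine ⟨v, ?_, ?_⟩
  · intro j hj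
    apply hv0 j
    rw [Cfsg.Agent.Helper43.OT.ph_self]
    show 2 * Q (v j) = 0
    rw [hj, mul_zero]
  · intro j l hjl
    obtain ⟨h1, h3⟩ := hvorth j l hjl
    rw [Matrix.toLin'_apply] at h3
    exact ⟨h1, h3⟩

end pieces

end Cfsg.Agent.Helper50.TSR2
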