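import Mathlib
import Cfsg.Agent.Helper96.OHDefs
import Cfsg.Agent.Helper69.ODDefs
import Cfsg.Agent.Helper59.TSR2SKOMEGA
import Cfsg.Agent.Helper50.TSR2SKBASIS

set_option autoImplicit false
set_option linter.unusedSectionVars false
set_option linter.unusedVariables false

/-!
# CALL OD (helper69; rows S5989 + S5991), piece SKOMEGAG (`od_skew_omega`), by helper50

`r2_skew_omega` of CALL TSR2 without the hypothesis `hm1` (`-1` a nonsquare), which was never
used: the proof of `Cfsg.Agent.Helper59.TSR2.r2_skew_omega` with the basis from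
`Cfsg.Agent.Helper50.TSR2.skb_aux` (no `hm1`); the auxiliary `sk_*` lemmas of helper59 are reused.
-/

namespace Cfsg.Agent.Helper50.OD59

open Module Polynomial Cfsg Cfsg.Geo
open Cfsg.Agent.Helper13.TIu Cfsg.Agent.Helper96.OH Cfsg.Agent.Helper69.OD
open scoped MatrixGroups
open Cfsg.Agent.Helper59.TSR2 Cfsg.Agent.Helper90.HT

variable {ι : Type} [Fintype ι] [DecidableEq ι] {F : Type*} [Field F] (Q : (ι → F) → F)

/-- SKBASIS without `hm1`: the orthogonal sum of `d` invariant planes `⟨v j, M v j⟩`. -/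
theorem od_skew_basis (hQ : IsNondegenerateQuadraticForm Q) (h2 : (2 : F) ≠ 0)
    (d : ℕ) (hcard : Fintype.card ι = 2 * d) (M : Matrix ι ι F) (hM : ∀ v, Q (M.mulVec v) = Q v)
    (hM2 : M * M = -1) :
    ∃ v : Fin d → (ι → F), (∀ j, Q (v j) ≠ 0) ∧
      ∀ j l, j ≠ l → QuadraticMap.polar Q (v j) (v l) = 0 ∧
        QuadraticMap.polar Q (v j) (M.mulVec (v l)) = 0 := by
  have hT2 : ∀ v : ι → F, (Matrix.toLin' M) ((Matrix.toLin' M) v) = -v := by
    intro v
    rw [Matrix.toLin'_apply, Matrix.toLin'_apply, Matrix.mulVec_mulVec, hM2, Matrix.neg_mulVec,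
      Matrix.one_mulVec]
  have hnd : HNondegOn (Cfsg.Agent.Helper43.OT.ph (Cfsg.Agent.Helper98.op_qf Q hQ))
      (⊤ : Submodule F (ι → F)) := by
    intro v _ hv
    exact Cfsg.Agent.Helper50.TSR2.r2_ph_nondeg Q hQ v (fun w => hv w Submodule.mem_top)
  obtain ⟨v, -, hv0, hvorth⟩ := Cfsg.Agent.Helper50.TSR2.skb_aux
    (Cfsg.Agent.Helper43.OT.ph (Cfsg.Agent.Helper98.op_qf Q hQ))
    (Cfsg.Agent.Helper43.OT.isHerm_ph _) h2 (Matrix.toLin' M)
    (Cfsg.Agent.Helper50.TSR2.r2_hpres Q hQ M hM) hT2 d ⊤ le_top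
    hnd (by rw [finrank_top, Module.finrank_fintype_fun_eq_card, hcard])
  refine ⟨v, ?_, ?_⟩
  · intro j hj
    apply hv0 j
    rw [Cfsg.Agent.Helper43.OT.ph_self]
    show 2 * Q (v j) = 0
    rw [hj, mul_zero]
  · intro j l hjl
    obtain ⟨h1, h3⟩ := hvorth j l hjl
    rw [Matrix.toLin'_apply] at h3
    exact ⟨h1, h3⟩

/-- SKOMEGAG [S: a copy]: `r2_skew_omega` of CALL TSR2 WITHOUT the hypothesis `hm1` - copy
Helper59/TSR2SKOMEGA.lean (`Cfsg.Agent.Helper59...r2_skew_omega`) together with its `r2_skew_basis`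
(Helper50/TSR2SKBASIS.lean or Helper6/TSR2SKBASIS.lean), where `hm1` is never used in the proofs,
under fresh names. -/
theorem od_skew_omega [Fintype F] (hQ : IsNondegenerateQuadraticForm Q) (h2 : (2 : F) ≠ 0)
    (d : ℕ) (hd : 1 ≤ d) (hcard : Fintype.card ι = 2 * d) (g : ↥(Cfsg.isometryGroup F Q))
    (hg2 : ((g : GL ι F) : Matrix ι ι F) * ((g : GL ι F) : Matrix ι ι F) = -1) :
    g ∈ Cfsg.Omega F Q ↔ IsSquare ((2 : F) ^ d) := by
  classical
  obtain ⟨q, hq⟩ : ∃ q : QuadraticForm F (ι → F), q = Cfsg.Agent.Helper98.op_qf Q hQ := ⟨_, rfl⟩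
  have hqQ : ∀ x, q x = Q x := fun x => by rw [hq]; rfl
  obtain ⟨M, hMdef⟩ : ∃ M : Matrix ι ι F, M = ((g : GL ι F) : Matrix ι ι F) := ⟨_, rfl⟩
  rw [← hMdef] at hg2
  have hMQ : ∀ x, Q (M.mulVec x) = Q x := by
    rw [hMdef]
    exact (Cfsg.Agent.Helper45.mem_iso_iff Q g.1).mp g.2
  have hM : ∀ x, q (M.mulVec x) = q x := fun x => by rw [hqQ, hqQ, hMQ]
  obtain ⟨v, hv', horth'⟩ :=
    od_skew_basis Q hQ h2 d hcard M hMQ hg2
  have hv : ∀ j, q (v j) ≠ 0 := fun j => by rw [hqQ]; exact hv' j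
  have horth : ∀ j l, j ≠ l → QuadraticMap.polar ⇑q (v j) (v l) = 0 ∧
      QuadraticMap.polar ⇑q (v j) (M.mulVec (v l)) = 0 := by
    intro j l hjl
    have h := horth' j l hjl
    rw [hq]
    exact h
  -- the orthogonal basis `v j, M v j`
  obtain ⟨b, hb⟩ : ∃ b : Fin d ⊕ Fin d → (ι → F), b = Sum.elim v (fun j => M.mulVec (v j)) :=
    ⟨_, rfl⟩
  have hbl : ∀ j, b (Sum.inl j) = v j := fun j => by rw [hb]; rfl
  have hbr : ∀ j, b (Sum.inr j) = M.mulVec (v j) := fun j => by rw [hb]; rfl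
  have hbq : ∀ i, q (b i) ≠ 0 := by
    rintro (j | j)
    · rw [hbl]; exact hv j
    · rw [hbr, hM]; exact hv j
  have hborth : ∀ i i', i ≠ i' → QuadraticMap.polar ⇑q (b i) (b i') = 0 := by
    rintro (j | j) (l | l) hne
    · rw [hbl, hbl]
      exact (horth j l (fun h => hne (by rw [h]))).1
    · rw [hbl, hbr]
      by_cases hjl : j = l
      · rw [hjl]
        exact sk_polar_self q M h2 hM hg2 (v l)
      · exact (horth j l hjl).2
    · rw [hbr, hbl, QuadraticMap.polar_comm]
      by_cases hjl : l = j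
      · rw [hjl]
        exact sk_polar_self q M h2 hM hg2 (v j)
      · exact (horth l j hjl).2
    · rw [hbr, hbr, sk_polar_M q M hM]
      exact (horth j l (fun h => hne (by rw [h]))).1
  have hli : LinearIndependent F b := by
    apply LinearMap.BilinForm.linearIndependent_of_iIsOrtho (B := QuadraticMap.polarBilin q)
    · intro i i' hne
      exact hborth i i' hne
    · intro i hi
      have h1 : QuadraticMap.polar ⇑q (b i) (b i) = 0 := hi
      rw [QuadraticMap.polar_self] at h1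
      have h3 : (2 : F) * q (b i) = 0 := by simpa using h1
      rcases mul_eq_zero.mp h3 with h | h
      · exact h2 h
      · exact hbq i h
  have hspan : Submodule.span F (Set.range b) = ⊤ := by
    apply hli.span_eq_top_of_card_eq_finrank'
    rw [Module.finrank_fintype_fun_eq_card, hcard, Fintype.card_sum, Fintype.card_fin]
    ring
  have hLnd : (List.finRange d).Nodup := List.nodup_finRange d
  have hMP : M = skProd q M v (List.finRange d) := by
    apply Matrix.toLin'.injective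
    apply LinearMap.ext_on_range hspan
    rintro (j | j)
    · rw [hbl, Matrix.toLin'_apply, Matrix.toLin'_apply]
      exact ((sk_prod_rot q M v h2 hM hg2 hv horth _ hLnd j (List.mem_finRange j)).1).symm
    · rw [hbr, Matrix.toLin'_apply, Matrix.toLin'_apply, sk_MM M hg2]
      exact ((sk_prod_rot q M v h2 hM hg2 hv horth _ hLnd j (List.mem_finRange j)).2).symm
  have hcard2 : 2 ≤ Fintype.card ι := by omega
  have hnd : (QuadraticMap.polarBilin q).Nondegenerate := by
    rw [hq]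
    exact Cfsg.Agent.Helper98.op_qf_nondeg Q hQ
  subst hq
  have key := Cfsg.Agent.Helper45.mem_omega_prod_refl (Cfsg.Agent.Helper98.op_qf Q hQ) h2 hnd hcard2
    (skList M v (List.finRange d)) (sk_mem _ M v h2 hM hg2 hv _) g
    (by rw [← hMdef]; exact hMP)
  refine Iff.trans key ?_
  rw [sk_length, sk_norm _ M v h2 hM hg2, List.length_finRange]
  have hc := sk_norm_ne (Cfsg.Agent.Helper98.op_qf Q hQ) v hv (List.finRange d)
  constructor
  · rintro ⟨-, s, hs⟩
    refine ⟨s / (List.map (fun j => (Cfsg.Agent.Helper98.op_qf Q hQ) (v j)) (List.finRange d)).prod, ?_⟩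
    field_simp
    linear_combination hs
  · rintro ⟨t, ht⟩
    refine ⟨even_two_mul d, ⟨t * (List.map (fun j => (Cfsg.Agent.Helper98.op_qf Q hQ) (v j))
      (List.finRange d)).prod, ?_⟩⟩
    rw [ht]
    ring

end Cfsg.Agent.Helper50.OD59
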