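/-
helper50: PIECE IDENT of CALL S4504 (helper8): `H / Z(H) ≅ PSL(2,p)` from the group-level data
(S0996 on `H / Z(H)`; the characteristic 2 alternative forces `p = 5`, then S0252 + S0253).
-/
import Mathlib
import Cfsg.Agent.Helper8.S4504Defs
import Cfsg.Agent.S0996
import Cfsg.Agent.S0252
import Cfsg.Agent.S0253
import Cfsg.Agent.Helper57.ListSub
import Cfsg.Agent.Helper5.SLCard

set_option autoImplicit false
open Cfsg Cfsg.Agent.Helper8
open scoped commutatorElement

universe u

namespace Cfsg.Agent.Helper50

/-- A finite field with `2 ^ n` elements has characteristic 2. -/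
theorem s4504i_char_two {F : Type*} [Field F] [Fintype F] (n : ℕ)
    (hF : Fintype.card F = 2 ^ n) : (2 : F) = 0 := by
  have h := Nat.cast_card_eq_zero F
  rw [hF] at h
  push_cast at h
  have hn : n ≠ 0 := by
    rintro rfl
    have := Fintype.one_lt_card (α := F)
    rw [hF] at this
    simp at this
  exact (pow_eq_zero_iff hn).1 h

/-- A central subgroup generated by one element is normal. -/
theorem s4504i_normal_of_central {H : Type u} [Group H] (z : H) (hz : z ∈ Subgroup.center H) :
    (Subgroup.zpowers z).Normal := by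
  have hle : Subgroup.zpowers z ≤ Subgroup.center H := Subgroup.zpowers_le.mpr hz
  refine ⟨fun n hn g => ?_⟩
  have hc : g * n = n * g := (Subgroup.mem_center_iff.mp (hle hn)) g
  have : g * n * g⁻¹ = n := by rw [hc]; group
  rw [this]; exact hn

/-- `x` is not central. -/
theorem s4504i_not_central {H : Type u} [Group H] (p : ℕ) (x : H) (hg : S4504Grp p x) :
    x ∉ Subgroup.center H := fun h => hg.hnn (s4504i_normal_of_central x h)

/-- `H` is perfect. -/
theorem s4504i_perfect {H : Type u} [Group H] (p : ℕ) (x : H) (hg : S4504Grp p x) :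
    commutator H = ⊤ := by
  by_cases hx : x ∈ commutator H
  · exact hg.htop _ inferInstance hx
  · exfalso
    have hle : commutator H ≤ Subgroup.center H := hg.hcen _ inferInstance hx
    -- the centralizer of `x` is a normal subgroup containing `x`
    have hnorm : (Subgroup.zpowers x ⊔ commutator H).Normal := by
      refine ⟨fun n hn g => ?_⟩
      have h1 : g * n * g⁻¹ = ⁅g, n⁆ * n := by
        rw [commutatorElement_def]; group
      rw [h1]
      refine Subgroup.mul_mem _ (le_sup_right (a := Subgroup.zpowers x) ?_) hn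
      rw [commutator_def]
      exact Subgroup.commutator_mem_commutator (Subgroup.mem_top g) (Subgroup.mem_top n)
    have htop : Subgroup.zpowers x ⊔ commutator H = ⊤ :=
      hg.htop _ hnorm (le_sup_left (b := commutator H) (Subgroup.mem_zpowers x))
    have hcent : Subgroup.zpowers x ⊔ commutator H ≤ Subgroup.centralizer ({x} : Set H) := by
      refine sup_le ?_ ?_
      · rw [Subgroup.zpowers_le]
        rw [Subgroup.mem_centralizer_iff]
        intro y hy
        rw [Set.mem_singleton_iff] at hy
        rw [hy]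
      · intro c hc
        rw [Subgroup.mem_centralizer_iff]
        intro y hy
        rw [Set.mem_singleton_iff] at hy
        rw [hy]
        exact ((Subgroup.mem_center_iff.mp (hle hc)) x)
    rw [htop] at hcent
    apply s4504i_not_central p x hg
    rw [Subgroup.mem_center_iff]
    intro g
    have h1 : g ∈ Subgroup.centralizer ({x} : Set H) := hcent (Subgroup.mem_top g)
    rw [Subgroup.mem_centralizer_iff] at h1
    exact (h1 x rfl).symm

/-- The subgroup `⟨x⟩` is (the group of) a Sylow `p`-subgroup, and central elements of order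
dividing `p` are trivial. -/
theorem s4504i_sylow {H : Type u} [Group H] [Finite H] (p : ℕ) [Fact p.Prime] (x : H)
    (hg : S4504Grp p x) :
    (∀ K : Subgroup H, IsPGroup p K → Subgroup.zpowers x ≤ K → K = Subgroup.zpowers x) := by
  intro K hK hle
  have hp : p.Prime := Fact.out
  obtain ⟨k, hk⟩ := IsPGroup.iff_card.mp hK
  have hcx : Nat.card (Subgroup.zpowers x) = p := by rw [Nat.card_zpowers, hg.hx]
  have hdvd : Nat.card K ∣ Nat.card H := Subgroup.card_subgroup_dvd_card K
  have hk1 : k ≤ 1 := by
    by_contra hcon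
    have h2 : 2 ≤ k := by omega
    apply hg.hsq
    exact dvd_trans (pow_dvd_pow p h2) (hk ▸ hdvd)
  have hcard : Nat.card K ≤ Nat.card (Subgroup.zpowers x) := by
    rw [hk, hcx]
    calc p ^ k ≤ p ^ 1 := Nat.pow_le_pow_right hp.pos hk1
      _ = p := pow_one p
  exact (Subgroup.eq_of_le_of_card_ge hle hcard).symm

theorem s4504i_central_pow {H : Type u} [Group H] [Finite H] (p : ℕ) [Fact p.Prime] (x : H)
    (hg : S4504Grp p x) (z : H) (hz : z ∈ Subgroup.center H) (hzp : z ^ p = 1) : z = 1 := by
  by_contra hz1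
  have hp : p.Prime := Fact.out
  have hzo : orderOf z = p := orderOf_eq_prime hzp hz1
  have hnz : (Subgroup.zpowers z).Normal := s4504i_normal_of_central z hz
  have hPx : IsPGroup p (Subgroup.zpowers x) :=
    IsPGroup.of_card (n := 1) (by rw [Nat.card_zpowers, hg.hx, pow_one])
  have hPz : IsPGroup p (Subgroup.zpowers z) :=
    IsPGroup.of_card (n := 1) (by rw [Nat.card_zpowers, hzo, pow_one])
  have hsup : IsPGroup p (Subgroup.zpowers x ⊔ Subgroup.zpowers z : Subgroup H) :=
    IsPGroup.to_sup_of_normal_right hPx hPz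
  have h1 := s4504i_sylow p x hg _ hsup le_sup_left
  have h2 : z ∈ Subgroup.zpowers x := by
    rw [← h1]
    exact le_sup_right (a := Subgroup.zpowers x) (Subgroup.mem_zpowers z)
  have h3 : Subgroup.zpowers z ≤ Subgroup.zpowers x := Subgroup.zpowers_le.mpr h2
  have h4 : Subgroup.zpowers z = Subgroup.zpowers x := by
    refine Subgroup.eq_of_le_of_card_ge h3 ?_
    rw [Nat.card_zpowers, Nat.card_zpowers, hg.hx, hzo]
  apply s4504i_not_central p x hg
  have h5 : x ∈ Subgroup.zpowers z := by rw [h4]; exact Subgroup.mem_zpowers x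
  exact (Subgroup.zpowers_le.mpr hz) h5

/-- PIECE IDENT. -/
theorem s4504_ident {H : Type u} [Group H] [Finite H] (p : ℕ) [Fact p.Prime] (x : H)
    (hg : S4504Grp p x) (d : ℕ) (hp : p = 2 * d + 1) (hd2 : 2 ≤ d)
    (hcent : ∀ g : H, g * x = x * g → ∃ i : ℕ, ∃ z ∈ Subgroup.center H, g = x ^ i * z)
    (hsyl : Nat.card (Sylow p H) = p + 1)
    (hnormcard : Nat.card (Subgroup.normalizer ((Subgroup.zpowers x : Subgroup H) : Set H))
      = p * d * Nat.card (Subgroup.center H)) :
    Nonempty ((H ⧸ Subgroup.center H) ≃*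
      Matrix.ProjectiveSpecialLinearGroup (Fin 2) (ZMod p)) := by
  classical
  have hpp : p.Prime := Fact.out
  have hxp : x ^ p = 1 := by rw [← hg.hx]; exact pow_orderOf_eq_one x
  have hxZ : x ∉ Subgroup.center H := s4504i_not_central p x hg
  -- the quotient
  have hsurj : Function.Surjective (QuotientGroup.mk' (Subgroup.center H)) :=
    QuotientGroup.mk'_surjective _
  have hperf : commutator (H ⧸ Subgroup.center H) = ⊤ := by
    have h1 := s4504i_perfect p x hg
    rw [commutator_def] at h1 ⊢
    have h2 := Subgroup.map_commutator (⊤ : Subgroup H) ⊤ (QuotientGroup.mk' (Subgroup.center H))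
    rw [h1, Subgroup.map_top_of_surjective _ hsurj] at h2
    exact h2.symm
  have hord : orderOf (QuotientGroup.mk' (Subgroup.center H) x) = p := by
    refine orderOf_eq_prime ?_ ?_
    · rw [← map_pow, hxp, map_one]
    · intro h1
      apply hxZ
      have h2 : (x : H ⧸ Subgroup.center H) = 1 := h1
      exact (QuotientGroup.eq_one_iff x).mp h2
  have hC : Subgroup.centralizer ({QuotientGroup.mk' (Subgroup.center H) x} :
      Set (H ⧸ Subgroup.center H)) = Subgroup.zpowers (QuotientGroup.mk' (Subgroup.center H) x) := by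
    apply le_antisymm
    · intro q hq
      obtain ⟨g, rfl⟩ := hsurj q
      rw [Subgroup.mem_centralizer_iff] at hq
      have h1 := hq _ rfl
      -- `g x g⁻¹ x⁻¹` is central
      have h2 : QuotientGroup.mk' (Subgroup.center H) (g * x * g⁻¹ * x⁻¹) = 1 := by
        rw [map_mul, map_mul, map_mul, map_inv, map_inv, ← h1]
        group
      have h3 : g * x * g⁻¹ * x⁻¹ ∈ Subgroup.center H := by
        have h4 : ((g * x * g⁻¹ * x⁻¹ : H) : H ⧸ Subgroup.center H) = 1 := h2
        exact (QuotientGroup.eq_one_iff _).mp h4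
      obtain ⟨z, hzdef⟩ : ∃ z, z = g * x * g⁻¹ * x⁻¹ := ⟨_, rfl⟩
      rw [← hzdef] at h3
      have hzx : g * x * g⁻¹ = z * x := by rw [hzdef]; group
      have hcomm : Commute z x := (Subgroup.mem_center_iff.mp h3 x).symm
      have hzp : z ^ p = 1 := by
        have h5 : (g * x * g⁻¹) ^ p = 1 := by
          have := conj_pow (a := g) (b := x) (i := p)
          rw [this, hxp]; group
        rw [hzx, hcomm.mul_pow, hxp, mul_one] at h5
        exact h5
      have hz1 : z = 1 := s4504i_central_pow p x hg z h3 hzp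
      have hgx : g * x = x * g := by
        have : g * x = (g * x * g⁻¹) * g := by group
        rw [this, hzx, hz1, one_mul]
      obtain ⟨i, z', hz', hgi⟩ := hcent g hgx
      rw [Subgroup.mem_zpowers_iff]
      refine ⟨(i : ℤ), ?_⟩
      rw [hgi, map_mul, map_pow, zpow_natCast]
      have h6 : QuotientGroup.mk' (Subgroup.center H) z' = 1 := by
        have : ((z' : H) : H ⧸ Subgroup.center H) = 1 := (QuotientGroup.eq_one_iff z').mpr hz'
        exact this
      rw [h6, mul_one]
    · rw [Subgroup.zpowers_le, Subgroup.mem_centralizer_iff]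
      intro y hy
      rw [Set.mem_singleton_iff] at hy
      rw [hy]
  have hn : 2 * Nat.card (Sylow p (H ⧸ Subgroup.center H)) < (p + 1) * (p + 2) := by
    have h1 : Nat.card (Sylow p (H ⧸ Subgroup.center H)) ≤ Nat.card (Sylow p H) :=
      Nat.card_le_card_of_surjective _ (Sylow.mapSurjective_surjective hsurj p)
    rw [hsyl] at h1
    nlinarith [hpp.pos]
  -- orders
  have hcardH : Nat.card H = (p + 1) * (p * d * Nat.card (Subgroup.center H)) := by
    have hPx : IsPGroup p (Subgroup.zpowers x) :=
      IsPGroup.of_card (n := 1) (by rw [Nat.card_zpowers, hg.hx, pow_one])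
    obtain ⟨P, hP⟩ := hPx.exists_le_sylow
    have h1 : (P : Subgroup H) = Subgroup.zpowers x := s4504i_sylow p x hg _ P.isPGroup' hP
    have h2 := Sylow.card_eq_index_normalizer P
    have h3 := Subgroup.card_mul_index (Subgroup.normalizer (P : Set H))
    have h1' : (P : Set H) = ((Subgroup.zpowers x : Subgroup H) : Set H) := by
      rw [← h1]; rfl
    rw [← h2, h1', hnormcard, hsyl] at h3
    rw [← h3]; ring
  have hcardQ : Nat.card (H ⧸ Subgroup.center H) = (p + 1) * (p * d) := by
    have h1 := Subgroup.card_eq_card_quotient_mul_card_subgroup (Subgroup.center H)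
    rw [hcardH] at h1
    have hpos : 0 < Nat.card (Subgroup.center H) := Nat.card_pos
    have h2 : (p + 1) * (p * d) * Nat.card (Subgroup.center H) =
        Nat.card (H ⧸ Subgroup.center H) * Nat.card (Subgroup.center H) := by
      rw [← h1]; ring
    exact (Nat.eq_of_mul_eq_mul_right hpos h2).symm
  rcases Cfsg.Agent.S0996.result hperf p _ hord hC hn with
    ⟨F, _, _, hF, -, ⟨e⟩⟩ | ⟨m, F, _, _, hF, hpm, h3p, ⟨e⟩⟩
  · -- `|F| = p`
    have e2 : ZMod p ≃+* F := ZMod.ringEquivOfPrime F hpp hF
    exact ⟨e.trans (Cfsg.Agent.Helper57.pslCongr e2.symm)⟩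
  · -- `|F| = 2 ^ m = p - 1`: then `p = 5`
    have h2 : (2 : F) = 0 := s4504i_char_two m hF
    have hcardP := Cfsg.Agent.Helper5.card_PSL2_mul (F := F)
    rw [Cfsg.Agent.Helper5.center_SL2_eq_bot h2, Subgroup.card_bot, mul_one] at hcardP
    have h4 : Nat.card (H ⧸ Subgroup.center H) =
        Nat.card (Matrix.ProjectiveSpecialLinearGroup (Fin 2) F) := Nat.card_congr e.toEquiv
    rw [hcardQ, hcardP, hF] at h4
    have hq : 2 ^ m = 2 * d := by omega
    rw [hq, hp] at h4
    have hd : d = 2 := by
      have h5 : 1 ≤ (2 * d) ^ 2 := Nat.one_le_pow _ _ (by omega)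
      have h6 : ((2 * d) ^ 2 - 1 : ℕ) = 4 * d ^ 2 - 1 := by ring_nf
      have h7 : (2 * d + 1 + 1) * ((2 * d + 1) * d) = 2 * d * ((2 * d) ^ 2 - 1) := h4
      zify [h5] at h7
      have h8 : ((d : ℤ) - 2) * ((2 * d + 1) * d) = 0 := by nlinarith
      have h9 : (2 : ℤ) ≤ d := by exact_mod_cast hd2
      rcases mul_eq_zero.mp h8 with h10 | h10
      · have : (d : ℤ) = 2 := by linarith
        exact_mod_cast this
      · exfalso
        have : (0 : ℤ) < (2 * d + 1) * d := by positivity
        linarith
    have hp5 : p = 5 := by rw [hp, hd]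
    have hF4 : Fintype.card F = 4 := by rw [hF, hq, hd]
    subst hp5
    obtain ⟨e1⟩ := Cfsg.Agent.S0252.result hF4
    obtain ⟨e2⟩ := Cfsg.Agent.S0253.result (F := ZMod 5) (by rw [ZMod.card])
    exact ⟨(e.trans e1).trans e2.symm⟩

end Cfsg.Agent.Helper50
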