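import Mathlib
import Cfsg.Prelude.Def_GeometricClasses
import Cfsg.Prelude.Def_Classical
import Cfsg.Agent.Helper35.S88Defs
import Cfsg.Agent.Helper58.TSDefs
import Cfsg.Agent.Helper43.PrimeOrdO3
import Cfsg.Agent.Helper33.OType
import Cfsg.Agent.Helper43.S88OEDefs

set_option autoImplicit false

/-! # Sub-CALL S88OE piece BLKRESTR (helper50, double): the restriction of a block to an invariant
nondegenerate subspace is a block -/

namespace Cfsg.Agent.Helper50.S88OE

open Module Polynomial Cfsg Cfsg.Geo Cfsg.Agent.Helper58.TS Cfsg.Agent.Helper35.S88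
open Cfsg.Agent.Helper43 Cfsg.Agent.Helper43.OrthEven Cfsg.Agent.Helper43.CycFactors
  Cfsg.Agent.Helper43.PrimeOrdMat Cfsg.Agent.Helper43.S88OE
open scoped MatrixGroups

universe u

variable {F : Type*} [Field F] {Va Vb : Type*} [AddCommGroup Va] [Module F Va] [AddCommGroup Vb]
  [Module F Vb]

/-- `aeval` of a restricted endomorphism, applied to a vector of the subspace -/
theorem blkrestr_aeval (T : Module.End F Va) (U : Submodule F Va) (hmem : ∀ u ∈ U, T u ∈ U)
    (f : F[X]) (u : U) :
    ((aeval (T.restrict hmem) f u : U) : Va) = aeval T f (u : Va) := by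
  induction f using Polynomial.induction_on' with
  | add p q hp hq =>
    rw [map_add, map_add, LinearMap.add_apply, LinearMap.add_apply, Submodule.coe_add, hp, hq]
  | monomial n a =>
    rw [aeval_monomial, aeval_monomial, Module.End.mul_apply, Module.End.mul_apply,
      Module.algebraMap_end_apply, Module.algebraMap_end_apply, Submodule.coe_smul,
      Module.End.pow_restrict n hmem, LinearMap.restrict_coe_apply]

theorem oe_blk_restr (r : ℕ) (Qa : QuadraticForm F Va) (T : Module.End F Va)
    (hT : ∀ v, Qa (T v) = Qa v) (hcyc : aeval T (cyclotomic r F) = 0) (U : Submodule F Va)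
    (hU : U.map T ≤ U) (hnd : PolarNondeg (Qa.comp U.subtype)) :
    ∃ T' : Module.End F U, Blk r (Qa.comp U.subtype) T' := by
  have hmem : ∀ u ∈ U, T u ∈ U := fun u hu => hU ⟨u, hu, rfl⟩
  refine ⟨T.restrict hmem, hnd, ?_, ?_⟩
  · intro v
    show Qa (T (v : Va)) = Qa (v : Va)
    exact hT _
  · apply LinearMap.ext
    intro u
    apply Subtype.ext
    rw [blkrestr_aeval T U hmem, hcyc]
    rfl

end Cfsg.Agent.Helper50.S88OE
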