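import Mathlib
import Cfsg.Prelude.Def_GeometricClasses
import Cfsg.Prelude.Def_Classical
import Cfsg.Agent.Helper35.S88Defs
import Cfsg.Agent.Helper58.TSDefs
import Cfsg.Agent.Helper43.PrimeOrdO3
import Cfsg.Agent.Helper33.OType
import Cfsg.Agent.Helper43.S88OEDefs

set_option autoImplicit false

/-! # Sub-CALL S88OE pieces ISO and PSTOP (helper50, doubles): isometric linear equivalences
transport nondegeneracy and totally singular subspaces; the restrictions to `⊤` and `⊥` -/

namespace Cfsg.Agent.Helper50.S88OE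

open Module Polynomial Cfsg Cfsg.Geo Cfsg.Agent.Helper58.TS Cfsg.Agent.Helper35.S88
open Cfsg.Agent.Helper43 Cfsg.Agent.Helper43.OrthEven Cfsg.Agent.Helper43.CycFactors
  Cfsg.Agent.Helper43.PrimeOrdMat Cfsg.Agent.Helper43.S88OE
open scoped MatrixGroups

universe u

variable {F : Type*} [Field F] {Va Vb : Type*} [AddCommGroup Va] [Module F Va] [AddCommGroup Vb]
  [Module F Vb]

theorem oe_iso (Qa : QuadraticForm F Va) (Qb : QuadraticForm F Vb) (e : Va ≃ₗ[F] Vb)
    (he : ∀ v, Qb (e v) = Qa v) :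
    (PolarNondeg Qa ↔ PolarNondeg Qb) ∧ ∀ d, HasTS Qa d ↔ HasTS Qb d := by
  have hpol : ∀ u v, QuadraticMap.polar Qb (e u) (e v) = QuadraticMap.polar Qa u v := by
    intro u v
    simp only [QuadraticMap.polar, ← map_add, he]
  refine ⟨⟨fun h v hv => ?_, fun h v hv => ?_⟩, fun d => ⟨fun h => ?_, fun h => ?_⟩⟩
  · have h0 : e.symm v = 0 := h _ (fun w => by
      have := hv (e w)
      rw [← hpol, e.apply_symm_apply]
      exact this)
    have := congrArg e h0
    rwa [e.apply_symm_apply, map_zero] at this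
  · have h0 : e v = 0 := h _ (fun w => by
      have := hv (e.symm w)
      rw [← hpol, e.apply_symm_apply] at this
      exact this)
    exact e.map_eq_zero_iff.mp h0
  · exact hasTS_equiv Qb (fun z => Qa z) e he h
  · exact hasTS_equiv Qa (fun z => Qb z) e.symm
      (fun z => by rw [← he, e.apply_symm_apply]) h

theorem oe_top_bot (Qa : QuadraticForm F Va) :
    (PolarNondeg (Qa.comp (⊤ : Submodule F Va).subtype) ↔ PolarNondeg Qa) ∧
      (∀ d, HasTS (Qa.comp (⊤ : Submodule F Va).subtype) d ↔ HasTS Qa d) ∧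
      PolarNondeg (Qa.comp (⊥ : Submodule F Va).subtype) ∧
      HasTS (Qa.comp (⊥ : Submodule F Va).subtype) 0 := by
  have h := oe_iso (Qa.comp (⊤ : Submodule F Va).subtype) Qa Submodule.topEquiv (fun v => rfl)
  refine ⟨h.1, h.2, ?_, ?_⟩
  · intro v _
    exact Subsingleton.elim _ _
  · exact ⟨⊥, Nat.zero_le _, fun u hu => by rw [(Submodule.mem_bot F).mp hu, map_zero]⟩

end Cfsg.Agent.Helper50.S88OE
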