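import Mathlib
import Cfsg.Prelude.Def_GeometricClasses
import Cfsg.Prelude.Def_Classical
import Cfsg.Agent.Helper35.S88Defs
import Cfsg.Agent.Helper31.TJCDVD
import Cfsg.Agent.Helper96.OHCDVD

set_option autoImplicit false

/-!
# CALL S88 (row S5988; architect helper90, sub-architect helper94), piece ORD (`s88_ord`), by helper50

An isometry of order `r` (odd prime `≠ p`) of a nondegenerate quadratic form in dimension `2 d`
forces `c ≤ 2 d`, all characteristics: in odd characteristic by `Helper96.OH5992.o_cdvd`, in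
characteristic `2` the polar form is alternating and `Helper31.TI5961.c_dvd` applies.
-/

namespace Cfsg.Agent.Helper50.S88

open Module Cfsg Cfsg.Geo Cfsg.Agent.Helper35.S88
open scoped MatrixGroups

variable {ι : Type} [Fintype ι] [DecidableEq ι] {F : Type*} [Field F] [Fintype F]

omit [Fintype F] in
/-- powers of the endomorphism of a matrix -/
theorem s88_toLin_pow (M : Matrix ι ι F) (k : ℕ) (v : ι → F) :
    ((Matrix.toLin' M : Module.End F (ι → F)) ^ k) v = (M ^ k).mulVec v := by
  induction k generalizing v with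
  | zero => simp
  | succ k ih =>
    rw [pow_succ, Module.End.mul_apply, ih, Matrix.toLin'_apply, Matrix.mulVec_mulVec, pow_succ]

/-- ORD [M] (probably on main already in some form - TS stage ORD = `Helper86.TSORD`, S5992 piece
`Helper96.OHCDVD`): an isometry of order `r` forces `c ≤ 2 d`. -/
theorem s88_ord {p : ℕ} [Fact p.Prime] [CharP F p] {q : ℕ} (hq : Fintype.card F = q)
    (Q : (ι → F) → F) (hQ : IsNondegenerateQuadraticForm Q) (d : ℕ)
    (hcard : Fintype.card ι = 2 * d) (r : ℕ) [Fact r.Prime] (hr2 : 2 < r) (hrp : r ≠ p)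
    (i c : ℕ) (hi : i = orderOf (q : ZMod r)) (hc : c = if Even i then i else 2 * i)
    (x : GL ι F) (hx : x ∈ Cfsg.isometryGroup F Q) (hxr : x ^ r = 1) (hx1 : x ≠ 1) :
    c ≤ 2 * d := by
  subst hq
  have hpp : p.Prime := Fact.out
  have hrpr : r.Prime := Fact.out
  have hrF : (r : F) ≠ 0 := by
    intro h0
    have h1 := (CharP.cast_eq_zero_iff F p r).mp h0
    exact hrp ((Nat.prime_dvd_prime_iff_eq hpp hrpr).mp h1).symm
  obtain ⟨T, hTdef⟩ : ∃ T : Module.End F (ι → F), T = Matrix.toLin' (x : Matrix ι ι F) :=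
    ⟨_, rfl⟩
  have hTv : ∀ v, T v = (x : Matrix ι ι F).mulVec v := by
    intro v
    rw [hTdef, Matrix.toLin'_apply]
  have hOP : ∀ v, Q (T v) = Q v := by
    intro v
    rw [hTv]
    exact hx v v
  have hTr : T ^ r = 1 := by
    apply LinearMap.ext
    intro v
    have h1 : ((x : Matrix ι ι F)) ^ r = 1 := by
      have h3 := congrArg (fun g : GL ι F => (g : Matrix ι ι F)) hxr
      simpa using h3
    rw [hTdef, s88_toLin_pow, h1, Matrix.one_mulVec]
    rfl
  have hT1 : LinearMap.ker (T - 1) ≠ ⊤ := by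
    intro htop
    apply hx1
    apply Units.ext
    apply Matrix.toLin'.injective
    apply LinearMap.ext
    intro v
    have h1 : v ∈ LinearMap.ker (T - 1) := by rw [htop]; exact Submodule.mem_top
    rw [LinearMap.mem_ker, LinearMap.sub_apply, Module.End.one_apply, sub_eq_zero] at h1
    rw [← hTdef, h1]
    simp
  have hdvd : c ∣ finrank F (⊤ : Submodule F (ι → F)) -
      finrank F ((⊤ : Submodule F (ι → F)) ⊓ LinearMap.ker (T - 1) : Submodule F (ι → F)) := by
    by_cases h2 : (2 : F) = 0
    · -- characteristic 2: the polar form is alternating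
      have halt : ∀ v, Cfsg.Agent.Helper96.OH.pB Q hQ v v = 0 := by
        intro v
        rw [Cfsg.Agent.Helper96.OH.pB_apply, QuadraticMap.polar, ← two_smul F v, hQ.smul]
        linear_combination (Q v) * h2
      have hPres : Cfsg.Agent.Helper42.SpGroup.Preserves (Cfsg.Agent.Helper96.OH.pB Q hQ) T := by
        intro u v
        rw [Cfsg.Agent.Helper96.OH.pB_apply, Cfsg.Agent.Helper96.OH.pB_apply, QuadraticMap.polar,
          QuadraticMap.polar, ← map_add, hOP, hOP, hOP]
      have hNd : Cfsg.Agent.Helper13.TIsp.NondegOn (Cfsg.Agent.Helper96.OH.pB Q hQ)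
          (⊤ : Submodule F (ι → F)) := by
        intro v _ hv
        by_contra h0
        obtain ⟨w, hw⟩ := (hQ.nondegenerate v h0).2
        exact hw (hv w Submodule.mem_top)
      exact Cfsg.Agent.Helper31.TI5961.c_dvd (Cfsg.Agent.Helper96.OH.pB Q hQ) halt T hPres r hrF
        hTr i c hi hc ⊤ le_top hNd
    · have hONd : Cfsg.Agent.Helper96.OH.ONd Q (⊤ : Submodule F (ι → F)) := by
        intro w _ hw
        obtain ⟨⟨a, ha⟩, ⟨b, hb⟩⟩ := hQ.nondegenerate w hw
        exact ⟨⟨a, Submodule.mem_top, ha⟩, ⟨b, Submodule.mem_top, hb⟩⟩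
      exact Cfsg.Agent.Helper96.OH5992.o_cdvd Q hQ h2 T hOP r hr2 hrF hTr i c hi hc ⊤ le_top hONd
  rw [top_inf_eq, finrank_top, Module.finrank_fintype_fun_eq_card, hcard] at hdvd
  have hlt : finrank F (LinearMap.ker (T - 1)) < 2 * d := by
    have h1 := Submodule.finrank_lt hT1
    rw [Module.finrank_fintype_fun_eq_card, hcard] at h1
    exact h1
  have h3 := Nat.le_of_dvd (by omega) hdvd
  omega

end Cfsg.Agent.Helper50.S88
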