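import Mathlib
import Cfsg.Prelude.Def_GeometricClasses
import Cfsg.Prelude.Def_Classical
import Cfsg.Agent.Helper35.S88Defs
import Cfsg.Agent.Helper35.TSSTDM
import Cfsg.Agent.Helper97.S74R2G
import Cfsg.Agent.Helper31.OHOFIX
import Cfsg.Agent.Helper37.OEESPLIT
import Cfsg.Agent.Helper50.ODSKOMEGAG

set_option autoImplicit false
set_option linter.unusedSectionVars false
set_option linter.unusedVariables false

/-!
# CALL S90 (helper98; row S5990), stage R2G (helper50, double): `r = 2 ≠ p`, `⟸`, MINUS type.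

Port of `Cfsg.Agent.Helper97.S74.s74_two_good` (row S5974) to the minus type:
* `z = 1` (involutions): the two eigenspaces are orthogonal, nondegenerate and complementary; if their
  dimensions are odd, `Helper37.OE5993.oe_split`, if they are even, `s90_split_even` below;
* `z = -1`: `-1` a square is impossible in minus type (`r2e_eig_hyp` on `⊤`); otherwise `d` is odd
  (`r2_skew_type`), membership in `Ω` forces `2` to be a square (`od_skew_omega`), so `q ≡ 7 (8)`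
  and `m ≡ 2 (4)`: an invariant nondegenerate `m`-space has type `(-1) ^ (m / 2)`.
-/

namespace Cfsg.Agent.Helper50.S90

open Module Cfsg Cfsg.Geo Cfsg.Agent.Helper35.S88
open scoped MatrixGroups

section pieces

variable {ι : Type} [Fintype ι] [DecidableEq ι] {F : Type*} [Field F] [Fintype F]

/-- two orthogonal nondegenerate subspaces of even dimensions, the first of dimension `≥ 4`: a
nondegenerate sum `X ⊔ Y` (`X ≤ A`, `Y ≤ B`) of every even dimension `2 ≤ m ≤ dim A + dim B - 2`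
and of prescribed type. -/
theorem s90_split_even (Q : (ι → F) → F) (hQ : IsNondegenerateQuadraticForm Q) (h2 : (2 : F) ≠ 0)
    (A B : Submodule F (ι → F)) (hA : IsNondegenerateOn (QuadraticMap.polar Q) A)
    (hB : IsNondegenerateOn (QuadraticMap.polar Q) B)
    (horth : AreOrthogonalFor (QuadraticMap.polar Q) A B)
    (hAe : Even (finrank F A)) (hBe : Even (finrank F B)) (hA4 : 4 ≤ finrank F A) (m : ℕ)
    (hme : Even m) (hm2 : 2 ≤ m) (hmn : m + 2 ≤ finrank F A + finrank F B) (b : Prop) :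
    ∃ X Y : Submodule F (ι → F), X ≤ A ∧ Y ≤ B ∧ finrank F ↥(X ⊔ Y) = m ∧
      IsNondegenerateOn (QuadraticMap.polar Q) (X ⊔ Y) ∧ (IsPlusTypeOn Q (X ⊔ Y) ↔ b) := by
  obtain ⟨ka, hka⟩ := hAe
  obtain ⟨kb, hkb⟩ := hBe
  obtain ⟨km, hkm⟩ := hme
  have horthXY : ∀ X Y : Submodule F (ι → F), X ≤ A → Y ≤ B →
      AreOrthogonalFor (QuadraticMap.polar Q) X Y :=
    fun X Y hX hY u hu v hv => horth u (hX hu) v (hY hv)
  by_cases hma : m < finrank F A
  · obtain ⟨X, hXA, hX, hXdim, hXpl⟩ :=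
      Cfsg.Agent.Helper70.OH5992.o_sub Q hQ h2 A hA m ⟨km, hkm⟩ (by omega) hma b
    refine ⟨X, ⊥, hXA, bot_le, ?_, ?_, ?_⟩
    · rw [sup_bot_eq]; exact hXdim
    · rw [sup_bot_eq]; exact hX
    · rw [sup_bot_eq]; exact hXpl
  · have key : ∃ Y : Submodule F (ι → F), Y ≤ B ∧ IsNondegenerateOn (QuadraticMap.polar Q) Y ∧
        finrank F Y = m - (finrank F A - 2) := by
      by_cases hyb : m - (finrank F A - 2) < finrank F B
      · obtain ⟨Y, hYB, hY, hYdim, -⟩ :=
          Cfsg.Agent.Helper70.OH5992.o_sub Q hQ h2 B hB (m - (finrank F A - 2))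
            ⟨km - ka + 1, by omega⟩ (by omega) hyb True
        exact ⟨Y, hYB, hY, hYdim⟩
      · exact ⟨B, le_refl B, hB, by omega⟩
    obtain ⟨Y, hYB, hY, hYdim⟩ := key
    obtain ⟨X, hXA, hX, hXdim, hXpl⟩ :=
      Cfsg.Agent.Helper70.OH5992.o_sub Q hQ h2 A hA (finrank F A - 2) ⟨ka - 1, by omega⟩
        (by omega) (by omega) (IsPlusTypeOn Q Y ↔ b)
    have ho := horthXY X Y hXA hYB
    refine ⟨X, Y, hXA, hYB, ?_, Cfsg.Agent.Helper33.OType.nondeg_sup Q hQ X Y hX hY ho, ?_⟩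
    · rw [Cfsg.Agent.Helper33.OType.finrank_sup_of_orth Q X Y hX ho, hXdim, hYdim]
      omega
    · have hmul := Cfsg.Agent.Helper33.o_type_mul Q hQ X Y hX hY ho
        ⟨ka - 1, by rw [hXdim]; omega⟩ ⟨km - ka + 1, by rw [hYdim]; omega⟩
      rw [hmul]
      have hXpl' : IsPlusTypeOn Q X ↔ (IsPlusTypeOn Q Y ↔ b) := hXpl
      by_cases hy : IsPlusTypeOn Q Y <;> by_cases hb : b <;> simp [hXpl', hy, hb]

/-- an involutory isometry of a space of even dimension `≥ 8` fixes a nondegenerate subspace of every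
even dimension `2 ≤ m ≤ |ι| - 2` and of prescribed type. -/
theorem s90_good_two (Q : (ι → F) → F) (hQ : IsNondegenerateQuadraticForm Q) (h2 : (2 : F) ≠ 0)
    (T : Module.End F (ι → F)) (hT : ∀ v, Q (T v) = Q v) (hT2 : T ^ 2 = 1) (m : ℕ)
    (hme : Even m) (hm2 : 2 ≤ m) (hmn : m + 2 ≤ Fintype.card ι) (hev : Even (Fintype.card ι))
    (h8 : 8 ≤ Fintype.card ι) (b : Prop) :
    ∃ W : Submodule F (ι → F), (finrank F W = m ∧ IsNondegenerateOn (QuadraticMap.polar Q) W ∧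
      (IsPlusTypeOn Q W ↔ b)) ∧ W.map T ≤ W := by
  classical
  have h2F : ((2 : ℕ) : F) ≠ 0 := by
    rw [Nat.cast_ofNat]
    exact h2
  obtain ⟨hFixnd, P, -, hPT, hPnd, hPk, hsup, horth, hdim⟩ :=
    Cfsg.Agent.Helper31.OH5992.o_fix Q hQ T hT 2 (by norm_num) h2F hT2 ⊤ le_top
      (Cfsg.Agent.Helper96.OH.ond_top Q hQ)
  obtain ⟨Fix, hFix⟩ : ∃ Fix : Submodule F (ι → F), Fix = ⊤ ⊓ LinearMap.ker (T - 1) := ⟨_, rfl⟩
  rw [← hFix] at hFixnd hsup horth hdim
  rw [finrank_top, Module.finrank_fintype_fun_eq_card] at hdim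
  have hTT : ∀ v, T (T v) = v := by
    intro v
    have h := congrArg (fun f : Module.End F (ι → F) => f v) hT2
    simpa [pow_two] using h
  have hfix : ∀ x ∈ Fix, T x = x := by
    intro x hx
    rw [hFix] at hx
    have h : x ∈ LinearMap.ker (T - 1) := (Submodule.mem_inf.1 hx).2
    rw [LinearMap.mem_ker, LinearMap.sub_apply, Module.End.one_apply, sub_eq_zero] at h
    exact h
  have hneg : ∀ y ∈ P, T y = -y := by
    intro y hy
    have h1 : T y + y ∈ P := P.add_mem (hPT (Submodule.mem_map_of_mem hy)) hy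
    have h2' : T y + y ∈ LinearMap.ker (T - 1) := by
      rw [LinearMap.mem_ker, LinearMap.sub_apply, Module.End.one_apply, map_add, hTT]
      abel
    have h3 : T y + y ∈ P ⊓ LinearMap.ker (T - 1) := ⟨h1, h2'⟩
    rw [hPk, Submodule.mem_bot] at h3
    exact eq_neg_of_add_eq_zero_left h3
  have hinvFix : ∀ X : Submodule F (ι → F), X ≤ Fix → X.map T ≤ X := by
    rintro X hX _ ⟨x, hx, rfl⟩
    rw [hfix x (hX hx)]
    exact hx
  have hinvP : ∀ Y : Submodule F (ι → F), Y ≤ P → Y.map T ≤ Y := by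
    rintro Y hY _ ⟨y, hy, rfl⟩
    rw [hneg y (hY hy)]
    exact Y.neg_mem hy
  by_cases hFo : Odd (finrank F Fix)
  · obtain ⟨X, Y, hXA, hYB, hdimW, hnd, hty⟩ :=
      Cfsg.Agent.Helper37.OE5993.oe_split Q hQ h2 Fix P hFixnd hPnd horth hsup hFo m hme hm2
        (by omega) b
    refine ⟨X ⊔ Y, ⟨hdimW, hnd, hty⟩, ?_⟩
    rw [Submodule.map_sup]
    exact sup_le_sup (hinvFix X hXA) (hinvP Y hYB)
  · have hFe : Even (finrank F Fix) := Nat.not_odd_iff_even.mp hFo
    have hPe : Even (finrank F P) := by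
      have h : Even (finrank F P + finrank F Fix) := by rw [hdim]; exact hev
      exact (Nat.even_add.mp h).mpr hFe
    by_cases h4 : 4 ≤ finrank F Fix
    · obtain ⟨X, Y, hXA, hYB, hdimW, hnd, hty⟩ :=
        s90_split_even Q hQ h2 Fix P hFixnd hPnd horth hFe hPe h4 m hme hm2 (by omega) b
      refine ⟨X ⊔ Y, ⟨hdimW, hnd, hty⟩, ?_⟩
      rw [Submodule.map_sup]
      exact sup_le_sup (hinvFix X hXA) (hinvP Y hYB)
    · obtain ⟨X, Y, hXA, hYB, hdimW, hnd, hty⟩ :=
        s90_split_even Q hQ h2 P Fix hPnd hFixnd (Cfsg.Agent.Helper96.OH.oorth_symm Q horth)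
          hPe hFe (by omega) m hme hm2 (by omega) b
      refine ⟨X ⊔ Y, ⟨hdimW, hnd, hty⟩, ?_⟩
      rw [Submodule.map_sup]
      exact sup_le_sup (hinvP X hXA) (hinvFix Y hYB)

end pieces

section stages

variable {F : Type*} [Field F] [Fintype F]

theorem s90_two_good {p : ℕ} [Fact p.Prime] [CharP F p] {q : ℕ} (hq : Fintype.card F = q)
    (d m : ℕ) (hd : 4 ≤ d) (hm : 2 ≤ m) (hme : Even m) (hmn : m + 2 ≤ 2 * d) (a b : F)
    (hab : ∀ x y : F, x ^ 2 + a * x * y + b * y ^ 2 = 0 → x = 0 ∧ y = 0) (hp2 : p ≠ 2)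
    (hcond : Even d ∨ q % 8 ≠ 7 ∨ m % 4 = 2) :
    AllEll (Cfsg.quadFormMinus (d - 1) F a b) 2 m := by
  classical
  obtain ⟨hQ, hminus⟩ := Cfsg.Agent.Helper35.TS5973.ts_std_minus (F := F) (d - 1) a b hab
  have hoddq : Odd (Fintype.card F) := Cfsg.Agent.Helper97.S74.s74_odd_card hp2
  have h2 : (2 : F) ≠ 0 := Cfsg.Agent.Helper70.TSR2.r2_two_ne hoddq
  have hcard : Fintype.card ((Fin (d - 1) ⊕ Fin (d - 1)) ⊕ Fin 2) = 2 * d := by
    rw [Fintype.card_sum, Fintype.card_sum, Fintype.card_fin, Fintype.card_fin]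
    omega
  have hne : Nonempty ((Fin (d - 1) ⊕ Fin (d - 1)) ⊕ Fin 2) :=
    Fintype.card_pos_iff.mp (by omega)
  intro x hx hz hns
  obtain ⟨z, hz⟩ := hz
  obtain ⟨g, hgΩ, rfl⟩ := (Cfsg.Agent.Helper90.TS5973.r2a_mem_omegaGL _ x).mp hx
  have hM := Cfsg.Agent.Helper90.TS5973.r2a_iso (Cfsg.quadFormMinus (d - 1) F a b) g
  rw [Cfsg.Agent.Helper90.TS5973.r2a_sq] at hz
  rcases Cfsg.Agent.Helper70.TSR2.r2_z _ hQ hne _ hM z hz with rfl | rfl
  · rw [one_smul] at hz
    have hT2 : (Matrix.toLin' ((g : GL ((Fin (d - 1) ⊕ Fin (d - 1)) ⊕ Fin 2) F) :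
        Matrix ((Fin (d - 1) ⊕ Fin (d - 1)) ⊕ Fin 2) ((Fin (d - 1) ⊕ Fin (d - 1)) ⊕ Fin 2) F)) ^ 2
        = 1 := by
      rw [pow_two, Module.End.mul_eq_comp, ← Matrix.toLin'_mul, hz, Matrix.toLin'_one]
      rfl
    obtain ⟨W, ⟨hWdim, hWnd, hWty⟩, hWinv⟩ := s90_good_two _ hQ h2 _
      (fun v => by rw [Matrix.toLin'_apply]; exact hM v) hT2 m hme hm
      (by rw [hcard]; exact hmn) (by rw [hcard]; exact ⟨d, by omega⟩) (by rw [hcard]; omega) False
    exact ⟨W, ⟨hWdim, hWnd, fun h => hWty.mp h⟩, hWinv⟩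
  · rw [Cfsg.Agent.Helper90.TS5973.r2a_neg_one] at hz
    by_cases hm1 : IsSquare (-1 : F)
    · exfalso
      obtain ⟨s, hs⟩ := hm1
      refine hminus (Cfsg.Agent.Helper80.S88R2.r2e_eig_hyp _ hQ h2 _ hM hz s hs.symm ⊤ le_top
        (Cfsg.Agent.Helper96.OH.ond_top _ hQ))
    · have hq4 : q % 4 = 3 := by
        have h := (FiniteField.isSquare_neg_one_iff (F := F)).not.mp hm1
        rw [hq] at h
        omega
      have htype := Cfsg.Agent.Helper20.TSR2.r2_skew_type _ hQ h2 d (by omega) hcard _ hM hz hm1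
      have hdo : ¬ Even d := fun h => hminus (htype.mpr h)
      have hsq : IsSquare ((2 : F) ^ d) :=
        (Cfsg.Agent.Helper50.OD59.od_skew_omega _ hQ h2 d (by omega) hcard g hz).mp hgΩ
      have hsq2 : IsSquare (2 : F) := by
        obtain ⟨k, hk⟩ := Nat.not_even_iff_odd.mp hdo
        obtain ⟨s, hs⟩ := hsq
        have h2k : (2 : F) ^ k ≠ 0 := pow_ne_zero _ h2
        have e : s * s = 2 * ((2 : F) ^ k * (2 : F) ^ k) := by
          rw [← hs, hk]
          ring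
        refine ⟨s * ((2 : F) ^ k)⁻¹, ?_⟩
        have e2 : s * ((2 : F) ^ k)⁻¹ * (s * ((2 : F) ^ k)⁻¹) =
            s * s * (((2 : F) ^ k)⁻¹ * ((2 : F) ^ k)⁻¹) := by ring
        rw [e2, e]
        field_simp
      have hq8 : q % 8 = 7 := by
        have h := (FiniteField.isSquare_two_iff (F := F)).mp hsq2
        rw [hq] at h
        omega
      have hm4 : m % 4 = 2 := by
        rcases hcond with h | h | h
        · exact absurd h hdo
        · exact absurd hq8 h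
        · exact h
      obtain ⟨W, hWinv, hWnd, hWdim⟩ :=
        Cfsg.Agent.Helper97.S74.s74_skew_nd_gen _ hQ h2 d hcard _ hM hz (m / 2) (by omega)
      have hty := Cfsg.Agent.Helper20.S88R2.r2e_skew_sub_type _ hQ h2 _ hM hz hm1 W hWinv hWnd
        (m / 2) hWdim
      refine ⟨W, ⟨by rw [hWdim]; omega, hWnd, fun h => ?_⟩, hWinv⟩
      obtain ⟨k, hk⟩ := hty.mp h
      omega

end stages

end Cfsg.Agent.Helper50.S90
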