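import Mathlib
import Cfsg.Prelude.Def_GeometricClasses
import Cfsg.Prelude.Def_Classical
import Cfsg.Agent.Helper58.TSDefs
import Cfsg.Agent.Helper43.PrimeOrdO3
import Cfsg.Agent.Helper33.OType
import Cfsg.Agent.Helper7.TBBLKE
import Cfsg.Agent.Helper98.TBSPLIT
import Cfsg.Agent.Helper93.TBPROD
import Cfsg.Agent.Helper93.TBTYPEPROD

set_option autoImplicit false

/-!
# Sub-CALL TB (helper43), piece INDE (`tb_ind_even`), by helper50

Finset induction over homogeneous blocks.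
-/

namespace Cfsg.Agent.Helper50.TB

open Module Polynomial Cfsg Cfsg.Geo Cfsg.Agent.Helper58.TS
open Cfsg.Agent.Helper43 Cfsg.Agent.Helper43.OrthEven Cfsg.Agent.Helper43.CycFactors
  Cfsg.Agent.Helper43.PrimeOrdMat
open scoped MatrixGroups

universe u

section lvl3

variable {F : Type u} [Field F] [Fintype F]

/-- INDE [L] (uses BLKE, SPLIT, PRODTS, PRODND, TYPEPROD, AEVALPROD): induction on `S`
(`Finset.induction_on`).  `S = ∅`: `V := PUnit.{u+1}`, `Q := 0`, `T := 1` (charpoly of an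
endomorphism of the zero module is `1`: monic of degree `finrank = 0`).  `insert P S'`: the product
of the block of `(P, c P)` (BLKE) and the space for `S'`; `LinearMap.charpoly_prodMap`; SPLIT with
`fa := P ^ c P`, `fb := ∏ P' ∈ S', P' ^ c P'` (Cayley-Hamilton `LinearMap.aeval_self_charpoly`;
coprime: `CycFactors.isCoprime_of_ne`, `IsCoprime.pow`, `IsCoprime.prod_right`). -/
theorem tb_ind_even (p : ℕ) [Fact p.Prime] [CharP F p] (r : ℕ) [Fact r.Prime] (hr2 : 2 < r)
    (hrp : r ≠ p) (heven : Even (orderOf ((Fintype.card F : ℕ) : ZMod r))) (S : Finset F[X])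
    (hS : S ⊆ cycJ F r) (c : F[X] → ℕ) :
    ∃ (V : Type u) (_ : AddCommGroup V) (_ : Module F V) (_ : FiniteDimensional F V)
      (Q : QuadraticForm F V) (T : Module.End F V),
      PolarNondeg Q ∧ (∀ v, Q (T v) = Q v) ∧ aeval T (cyclotomic r F) = 0 ∧
      T.charpoly = ∏ P ∈ S, P ^ c P ∧
      finrank F V = 2 * (orderOf ((Fintype.card F : ℕ) : ZMod r) / 2 * ∑ P ∈ S, c P) ∧
      (HasTS Q (orderOf ((Fintype.card F : ℕ) : ZMod r) / 2 * ∑ P ∈ S, c P) ↔
        Even (∑ P ∈ S, c P)) ∧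
      ∀ U : Submodule F V, U.map T ≤ U → (∀ u ∈ U, Q u = 0) →
        ∃ s, finrank F U = orderOf ((Fintype.card F : ℕ) : ZMod r) * s ∧
          2 * s + ∑ P ∈ S, c P % 2 ≤ ∑ P ∈ S, c P := by
  classical
  induction S using Finset.induction_on with
  | empty =>
    have hfr0 : finrank F PUnit.{u+1} = 0 := Module.finrank_zero_of_subsingleton
    refine ⟨PUnit.{u+1}, inferInstance, inferInstance, inferInstance, 0, 1, ?_, ?_, ?_, ?_, ?_,
      ?_, ?_⟩
    · intro v _
      exact Subsingleton.elim _ _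
    · intro v
      rfl
    · exact LinearMap.ext (fun v => Subsingleton.elim _ _)
    · rw [Finset.prod_empty]
      exact Polynomial.eq_one_of_monic_natDegree_zero (LinearMap.charpoly_monic _)
        (by rw [LinearMap.charpoly_natDegree]; exact hfr0)
    · rw [Finset.sum_empty, mul_zero, mul_zero]
      exact hfr0
    · rw [Finset.sum_empty, mul_zero]
      exact ⟨fun _ => Even.zero, fun _ => ⟨⊥, Nat.zero_le _, fun u _ => rfl⟩⟩
    · intro U _ _
      refine ⟨0, ?_, by simp⟩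
      have h1 := Submodule.finrank_le U
      rw [hfr0] at h1
      rw [mul_zero]
      exact Nat.le_zero.mp h1
  | insert P S' hP ih =>
    have hPmem : P ∈ cycJ F r := hS (Finset.mem_insert_self _ _)
    have hS' : S' ⊆ cycJ F r := fun x hx => hS (Finset.mem_insert_of_mem hx)
    obtain ⟨Vb, _, _, _, Qb, Tb, hb1, hb2, hb3, hb4, hb5, hb6, hb7⟩ := ih hS'
    obtain ⟨Va, _, _, _, Qa, Ta, ha1, ha2, ha3, ha4, ha5, ha6, ha7⟩ :=
      Cfsg.Agent.Helper7.TB.tb_blk_even p r hr2 hrp heven P hPmem (c P)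
    have hcop : IsCoprime (P ^ c P) (∏ P' ∈ S', P' ^ c P') := by
      apply IsCoprime.pow_left
      apply IsCoprime.prod_right
      intro P' hP'
      apply IsCoprime.pow_right
      have h1 := mem_cycJ.mp hPmem
      have h3 := mem_cycJ.mp (hS' hP')
      exact isCoprime_of_ne h1.1 h1.2.1 h3.1 h3.2.1 (fun hPP => hP (hPP ▸ hP'))
    have haeA : aeval Ta (P ^ c P) = 0 := by
      rw [← ha4]
      exact LinearMap.aeval_self_charpoly Ta
    have haeB : aeval Tb (∏ P' ∈ S', P' ^ c P') = 0 := by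
      rw [← hb4]
      exact LinearMap.aeval_self_charpoly Tb
    refine ⟨Va × Vb, inferInstance, inferInstance, inferInstance, Qa.prod Qb, Ta.prodMap Tb,
      ?_, ?_, ?_, ?_, ?_, ?_, ?_⟩
    · exact Cfsg.Agent.Helper93.TB.tb_prod_nd Qa Qb ha1 hb1
    · rintro ⟨x, y⟩
      rw [LinearMap.prodMap_apply, QuadraticMap.prod_apply, QuadraticMap.prod_apply, ha2, hb2]
    · rw [Cfsg.Agent.Helper98.TB.tb_aeval_prod, ha3, hb3]
      exact LinearMap.ext (fun v => rfl)
    · rw [LinearMap.charpoly_prodMap, ha4, hb4, Finset.prod_insert hP]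
    · rw [Module.finrank_prod, ha5, hb5, Finset.sum_insert hP]
      ring
    · rw [Finset.sum_insert hP, mul_add,
        Cfsg.Agent.Helper93.TB.tb_type_prod Qa Qb ha1 hb1 _ _ ha5 hb5, ha6, hb6, Nat.even_add]
    · intro W hWT hW
      obtain ⟨Ua, Ub, hUa, hUb, rfl⟩ := Cfsg.Agent.Helper98.TB.tb_split Ta Tb (P ^ c P)
        (∏ P' ∈ S', P' ^ c P') hcop haeA haeB W hWT
      obtain ⟨hUa0, hUb0, hfr⟩ := Cfsg.Agent.Helper93.TB.tb_prod_ts Qa Qb Ua Ub hW
      obtain ⟨sa, hsa, hsa'⟩ := ha7 Ua hUa hUa0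
      obtain ⟨sb, hsb, hsb'⟩ := hb7 Ub hUb hUb0
      refine ⟨sa + sb, ?_, ?_⟩
      · rw [hfr, hsa, hsb, mul_add]
      · rw [Finset.sum_insert hP, Finset.sum_insert hP]
        omega

end lvl3

end Cfsg.Agent.Helper50.TB
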