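import Mathlib
import Cfsg.Agent.Helper13.TLDefs

/-!
# CALL S5954 (helper13), piece UAEA, generic form (helper50)

`u_atom_self_of`: the statement of `u_atom_self` with the three Hermitian pieces it uses (URAD, UDUAL,
UISO) as explicit hypotheses.  Proof: `b = ord_r (q²)` is odd and `T ^ (q ^ b) * T = 1`.  Take an
invariant `U₁ ≤ E₂` of dimension `b`; if it is not nondegenerate it is totally isotropic, its perp `P₁`
in `E₂` is invariant, proper, contains `U₁` and has dimension divisible by `b`, so `P₁ = U₁`; with an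
invariant complement `U₂` the annihilating polynomial of `U₁` kills `U₂` (UDUAL), hence `E₂`; the cyclic
subspace of a nonisotropic vector of `E₂` then has dimension `b` and is not totally isotropic.
-/

set_option autoImplicit false

namespace Cfsg.Agent.Helper50.TI5954

open Module Polynomial
open Cfsg.Agent.Helper13.TIu Cfsg.Agent.Helper13.TIsp Cfsg.Agent.Helper90.BG
open Cfsg.Agent.Helper39.TI5961 Cfsg.Agent.Helper58.TI5955

section geom2

variable {F : Type*} [Field F] {σ : F →+* F} {V : Type*} [AddCommGroup V] [Module F V]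
  [FiniteDimensional F V] (B : V →ₛₗ[σ] V →ₗ[F] F)

/-- UAEA with URAD (`hrad`), UDUAL (`hdual`) and UISO (`hiso`) as hypotheses. -/
theorem u_atom_self_of [Fintype F] (q : ℕ) (hq : Fintype.card F = q ^ 2) (hS : B.IsSymm)
    (T : Module.End F V) (hT : UPres B T) (r : ℕ) [Fact r.Prime] (hr2 : 2 < r)
    (hrF : (r : F) ≠ 0) (hTr : T ^ r = 1) (hi4 : orderOf (q : ZMod r) % 4 = 2)
    (hrad : ∀ U : Submodule F V, U.map T ≤ U → U ⊓ LinearMap.ker (T - 1) = ⊥ →
      finrank F U = orderOf ((Fintype.card F : ℕ) : ZMod r) →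
      UNd B U ∨ (∀ u ∈ U, ∀ v ∈ U, B u v = 0))
    (hdual : ∀ k : ℕ, Odd k → T ^ (q ^ k) * T = 1 → ∀ U₁ U₂ : Submodule F V, U₂.map T ≤ U₂ →
      (∀ w ∈ U₂, (∀ u ∈ U₁, B w u = 0) → w = 0) → ∀ g : F[X],
      (∀ u ∈ U₁, aeval T g u = 0) → ∀ w ∈ U₂, aeval T g w = 0)
    (hiso : ∀ W : Submodule F V, UNd B W → W ≠ ⊥ → ∃ v ∈ W, B v v ≠ 0)
    (E₂ : Submodule F V) (hET : E₂.map T ≤ E₂) (hE : UNd B E₂)
    (hEk : E₂ ⊓ LinearMap.ker (T - 1) = ⊥)
    (hEdim : finrank F E₂ = 2 * orderOf ((Fintype.card F : ℕ) : ZMod r)) :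
    ∃ E : Submodule F V, E ≤ E₂ ∧ E.map T ≤ E ∧ UNd B E ∧
      finrank F E = orderOf ((Fintype.card F : ℕ) : ZMod r) := by
  classical
  have hd : ∀ g : F[X], Irreducible g → g ∣ ∑ j ∈ Finset.range r, (X : F[X]) ^ j →
      g.natDegree = orderOf ((Fintype.card F : ℕ) : ZMod r) := fun g hg hdvd =>
    Cfsg.Agent.Helper46.bgl_irr_factor_degree r hrF g hg hdvd
  have hqpos : 0 < q := by
    rcases Nat.eq_zero_or_pos q with h | h
    · subst h
      have := Fintype.card_pos (α := F)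
      rw [hq] at this
      simp at this
    · exact h
  have hib : orderOf ((q : ℕ) : ZMod r) = 2 * orderOf ((Fintype.card F : ℕ) : ZMod r) := by
    have h1 : ((Fintype.card F : ℕ) : ZMod r) = ((q : ℕ) : ZMod r) ^ 2 := by
      rw [hq]
      push_cast
      rfl
    have h2 := orderOf_pow' ((q : ℕ) : ZMod r) (n := 2) (by norm_num)
    have h3 : Nat.gcd (orderOf ((q : ℕ) : ZMod r)) 2 = 2 :=
      Nat.gcd_eq_right (Nat.dvd_of_mod_eq_zero (by omega))
    rw [h1, h2, h3]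
    omega
  obtain ⟨b, hb⟩ : ∃ b, b = orderOf ((Fintype.card F : ℕ) : ZMod r) := ⟨_, rfl⟩
  rw [← hb] at hEdim hib hd ⊢
  have hrad' : ∀ U : Submodule F V, U.map T ≤ U → U ⊓ LinearMap.ker (T - 1) = ⊥ →
      finrank F U = b → UNd B U ∨ (∀ u ∈ U, ∀ v ∈ U, B u v = 0) := by
    intro U h1 h2 h3
    exact hrad U h1 h2 (by rw [h3, hb])
  by_contra hcon
  have hbodd : Odd b := by
    rw [Nat.odd_iff]
    omega
  have hb1 : 1 ≤ b := by omega
  have hrdvd : r ∣ q ^ b + 1 := ti_dvd_plus r q b hqpos hb1 hib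
  have hQ : T ^ (q ^ b) * T = 1 := by
    obtain ⟨m, hm⟩ := hrdvd
    rw [← pow_succ, hm, pow_mul, hTr, one_pow]
  have hkill : ∀ v ∈ E₂, aeval T (∑ j ∈ Finset.range r, (X : F[X]) ^ j) v ∈
      (⊥ : Submodule F V) := by
    intro v hv
    have h2 : aeval T (∑ j ∈ Finset.range r, (X : F[X]) ^ j) v ∈
        E₂ ⊓ LinearMap.ker (T - 1) := by
      refine ⟨aeval_mem T E₂ hET _ hv, ?_⟩
      rw [SetLike.mem_coe, LinearMap.mem_ker, ← Module.End.mul_apply,
        sub_one_mul_aeval_phi T r hTr, LinearMap.zero_apply]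
    rw [hEk] at h2
    exact h2
  have hile : b ≤ finrank F E₂ := by omega
  obtain ⟨U₁, -, hU₁E, hU₁T, hU₁fr⟩ := chain_exists T ⊥ E₂ bot_le (by simp) hET
    (∑ j ∈ Finset.range r, (X : F[X]) ^ j) (phi_ne_zero r hrF) hkill b hd 1 (by simpa using hile)
  rw [finrank_bot, zero_add, mul_one] at hU₁fr
  have hsubk : ∀ U : Submodule F V, U ≤ E₂ → U ⊓ LinearMap.ker (T - 1) = ⊥ := by
    intro U hU
    rw [eq_bot_iff]
    exact (inf_le_inf_right _ hU).trans (le_of_eq hEk)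
  have hdich : ∀ U : Submodule F V, U ≤ E₂ → U.map T ≤ U → finrank F U = b →
      ∀ u ∈ U, ∀ v ∈ U, B u v = 0 := by
    intro U hU hUT hUfr
    rcases hrad' U hUT (hsubk U hU) hUfr with hnd | hti
    · exact absurd ⟨U, hU, hUT, hnd, hUfr⟩ hcon
    · exact hti
  have hti := hdich U₁ hU₁E hU₁T hU₁fr
  obtain ⟨g, hgm, hgdeg, hgU₁⟩ := ann_poly T U₁ hU₁T
  -- the perp of `U₁` in `E₂`
  obtain ⟨P₁, hP₁⟩ : ∃ P₁ : Submodule F V, ∀ w, w ∈ P₁ ↔ (w ∈ E₂ ∧ ∀ u ∈ U₁, B u w = 0) :=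
    ⟨{ carrier := {w | w ∈ E₂ ∧ ∀ u ∈ U₁, B u w = 0}
       add_mem' := fun {a c} ha hc => ⟨E₂.add_mem ha.1 hc.1, fun u hu => by
         rw [map_add, ha.2 u hu, hc.2 u hu, add_zero]⟩
       zero_mem' := ⟨E₂.zero_mem, fun u _ => map_zero _⟩
       smul_mem' := fun c a ha => ⟨E₂.smul_mem c ha.1, fun u hu => by
         rw [map_smul, ha.2 u hu, smul_zero]⟩ }, fun w => Iff.rfl⟩
  have hP₁E : P₁ ≤ E₂ := fun w hw => ((hP₁ w).mp hw).1
  have hU₁P₁ : U₁ ≤ P₁ := fun v hv => (hP₁ v).mpr ⟨hU₁E hv, fun u hu => hti u hu v hv⟩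
  have hr1 : r = (r - 1) + 1 := by omega
  have hP₁T : P₁.map T ≤ P₁ := by
    rintro _ ⟨w, hw, rfl⟩
    rw [SetLike.mem_coe, hP₁] at hw
    refine (hP₁ _).mpr ⟨hET (Submodule.mem_map_of_mem hw.1), fun u hu => ?_⟩
    have h1 : T ((T ^ (r - 1)) u) = u := by
      rw [← Module.End.mul_apply, ← pow_succ', ← hr1, hTr, Module.End.one_apply]
    have h2 := hT ((T ^ (r - 1)) u) w
    rw [h1] at h2
    rw [h2]
    exact hw.2 _ (ti_pow_mem T U₁ hU₁T (r - 1) u hu)
  have hU₁ne : U₁ ≠ ⊥ := by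
    intro h
    rw [h, finrank_bot] at hU₁fr
    omega
  have hP₁lt : P₁ < E₂ := by
    refine lt_of_le_of_ne hP₁E ?_
    intro h
    apply hU₁ne
    rw [eq_bot_iff]
    intro u hu
    rw [Submodule.mem_bot]
    apply hE u (hU₁E hu)
    intro w hw
    rw [← h] at hw
    exact ((hP₁ w).mp hw).2 u hu
  have hP₁fr : finrank F P₁ = b := by
    have h1 := Submodule.finrank_lt_finrank_of_lt hP₁lt
    have h2 := Submodule.finrank_mono hU₁P₁
    have hdvd := cyc_dvd T r b hrF hTr hd P₁ hP₁T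
    rw [hsubk _ hP₁E, finrank_bot, Nat.sub_zero] at hdvd
    obtain ⟨c, hc⟩ := hdvd
    rcases Nat.lt_or_ge c 1 with h | h
    · have hc0 : c = 0 := by omega
      rw [hc0, Nat.mul_zero] at hc
      omega
    · rcases Nat.lt_or_ge c 2 with h' | h'
      · have hc1 : c = 1 := by omega
        rw [hc, hc1, Nat.mul_one]
      · have : b * 2 ≤ b * c := Nat.mul_le_mul_left b h'
        omega
  have hP₁eq : U₁ = P₁ := Submodule.eq_of_le_of_finrank_eq hU₁P₁ (by omega)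
  obtain ⟨U₂, hU₂E, hU₂T, hU₁U₂, hsup⟩ := ti_compl T r hrF hTr U₁ E₂ hU₁E hU₁T hET
  have hpair : ∀ w ∈ U₂, (∀ u ∈ U₁, B w u = 0) → w = 0 := by
    intro w hw h
    have h3 : w ∈ U₁ ⊓ U₂ := by
      refine ⟨?_, hw⟩
      rw [hP₁eq]
      refine (hP₁ w).mpr ⟨hU₂E hw, fun u hu => ?_⟩
      rw [← hS.eq w u, h u hu, map_zero]
    rw [hU₁U₂] at h3
    exact (Submodule.mem_bot F).mp h3
  have hgU₂ := hdual b hbodd hQ U₁ U₂ hU₂T hpair g hgU₁
  have hgE : ∀ v ∈ E₂, aeval T g v = 0 := by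
    intro v hv
    rw [← hsup] at hv
    obtain ⟨u₁, hu₁, u₂, hu₂, rfl⟩ := Submodule.mem_sup.mp hv
    rw [map_add, hgU₁ u₁ hu₁, hgU₂ u₂ hu₂, add_zero]
  have hE0 : E₂ ≠ ⊥ := by
    intro h
    rw [h, finrank_bot] at hEdim
    omega
  obtain ⟨v, hv, hvv⟩ := hiso E₂ hE hE0
  have hv0 : v ≠ 0 := by
    intro h
    apply hvv
    rw [h, map_zero]
  have hZE : Submodule.span F (Set.range fun j : ℕ => (T ^ j) v) ≤ E₂ := by
    rw [Submodule.span_le]
    rintro _ ⟨j, rfl⟩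
    exact ti_pow_mem T E₂ hET j v hv
  have hZT : (Submodule.span F (Set.range fun j : ℕ => (T ^ j) v)).map T ≤
      Submodule.span F (Set.range fun j : ℕ => (T ^ j) v) := by
    rw [Submodule.map_span, Submodule.span_le]
    rintro _ ⟨_, ⟨j, rfl⟩, rfl⟩
    apply Submodule.subset_span
    refine ⟨j + 1, ?_⟩
    show (T ^ (j + 1)) v = T ((T ^ j) v)
    rw [pow_succ', Module.End.mul_apply]
  have hvZ : v ∈ Submodule.span F (Set.range fun j : ℕ => (T ^ j) v) :=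
    Submodule.subset_span ⟨0, by simp⟩
  have hle : finrank F (Submodule.span F (Set.range fun j : ℕ => (T ^ j) v)) ≤ b := by
    have h5 := cyc_dim_le T g hgm v (hgE v hv)
    rw [hgdeg, hU₁fr] at h5
    exact h5
  have hdvd := cyc_dvd T r b hrF hTr hd _ hZT
  rw [hsubk _ hZE, finrank_bot, Nat.sub_zero] at hdvd
  have hpos : 0 < finrank F (Submodule.span F (Set.range fun j : ℕ => (T ^ j) v)) := by
    rw [Nat.pos_iff_ne_zero]
    intro h0
    have h6 := Submodule.finrank_eq_zero.mp h0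
    rw [h6] at hvZ
    exact hv0 ((Submodule.mem_bot F).mp hvZ)
  have hfr : finrank F (Submodule.span F (Set.range fun j : ℕ => (T ^ j) v)) = b :=
    le_antisymm hle (Nat.le_of_dvd hpos hdvd)
  exact hvv (hdich _ hZE hZT hfr v hvZ v hvZ)

end geom2

end Cfsg.Agent.Helper50.TI5954
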