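import Mathlib
import Cfsg.Agent.Helper13.TLDefs

/-!
# CALL S5954 (helper13), piece USTRUCT, generic form (helper50)

`ustruct_p_of`: the statement of `ustruct_p` with the pieces it uses (UATOMP, UPERP, USUM) as
explicit hypotheses; `jt_add` is taken from `Cfsg.Agent.Helper37.TI5956`.
-/

set_option autoImplicit false

namespace Cfsg.Agent.Helper50.TI5954

open Module Polynomial
open Cfsg.Agent.Helper13.TIu Cfsg.Agent.Helper13.TIsp

section geom2

variable {F : Type*} [Field F] {σ : F →+* F} {V : Type*} [AddCommGroup V] [Module F V]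
  [FiniteDimensional F V] (B : V →ₛₗ[σ] V →ₗ[F] F)

/-- USTRUCT with UATOMP (`hatom`), UPERP (`hperp`) and USUM (`hsum`) as hypotheses. -/
theorem ustruct_p_of (T : Module.End F V) (p : ℕ) (hNp : (T - 1) ^ p = 0)
    (hatom : ∀ E : Submodule F V, E.map T ≤ E → UNd B E → E ≠ ⊥ →
      ∃ (Z : Submodule F V) (a : ℕ), Z ≤ E ∧ Z.map T ≤ Z ∧ UNd B Z ∧ 0 < a ∧ a ≤ p ∧
        JT (T - 1) Z (Multiset.replicate 1 a))
    (hperp : ∀ M M₁ : Submodule F V, UNd B M → UNd B M₁ → M₁ ≤ M → M.map T ≤ M →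
      M₁.map T ≤ M₁ →
      ∃ P : Submodule F V, P ≤ M ∧ P.map T ≤ P ∧ UNd B P ∧ M₁ ⊓ P = ⊥ ∧ M₁ ⊔ P = M ∧
        (∀ u ∈ M₁, ∀ v ∈ P, B u v = 0) ∧ (∀ u ∈ P, ∀ v ∈ M₁, B u v = 0) ∧
        finrank F P + finrank F M₁ = finrank F M)
    (hsum : ∀ X Y : Submodule F V, UNd B X → UNd B Y → (∀ u ∈ X, ∀ v ∈ Y, B u v = 0) →
      (∀ u ∈ Y, ∀ v ∈ X, B u v = 0) →
      UNd B (X ⊔ Y) ∧ X ⊓ Y = ⊥ ∧ finrank F ↥(X ⊔ Y) = finrank F X + finrank F Y) :
    ∀ (E : Submodule F V), E.map T ≤ E → UNd B E →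
      ∃ μ : Multiset ℕ, JT (T - 1) E μ ∧ (∀ a ∈ μ, 0 < a ∧ a ≤ p) ∧
        ∀ ν : Multiset ℕ, ν ≤ μ →
          ∃ W : Submodule F V, W ≤ E ∧ W.map T ≤ W ∧ UNd B W ∧ finrank F W = ν.sum := by
  classical
  suffices H : ∀ k : ℕ, ∀ E : Submodule F V, finrank F E = k → E.map T ≤ E → UNd B E →
      ∃ μ : Multiset ℕ, JT (T - 1) E μ ∧ (∀ a ∈ μ, 0 < a ∧ a ≤ p) ∧
        ∀ ν : Multiset ℕ, ν ≤ μ →
          ∃ W : Submodule F V, W ≤ E ∧ W.map T ≤ W ∧ UNd B W ∧ finrank F W = ν.sum from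
    fun E hET hE => H _ E rfl hET hE
  intro k
  induction k using Nat.strong_induction_on with
  | _ k ih =>
  intro E hk hET hE
  by_cases hE0 : E = ⊥
  · subst hE0
    refine ⟨0, ?_, ?_, ?_⟩
    · intro j
      simp
    · intro a ha
      simp at ha
    · intro ν hν
      have hν0 : ν = 0 := le_zero_iff.mp hν
      subst hν0
      refine ⟨⊥, le_rfl, ?_, ?_, ?_⟩
      · simp
      · intro v hv _
        exact (Submodule.mem_bot F).mp hv
      · simp
  · obtain ⟨Z, a, hZE, hZT, hZ, ha0, hap, hJZ⟩ := hatom E hET hE hE0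
    obtain ⟨P, hPE, hPT, hP, hZP, hZPE, ho1, ho2, hfr⟩ := hperp E Z hE hZ hZE hET hZT
    have hfZ : finrank F Z = a := by
      have h := hJZ p
      rw [hNp, LinearMap.ker_zero, inf_top_eq] at h
      rw [h, Multiset.map_replicate, Multiset.sum_replicate, smul_eq_mul, min_eq_left hap,
        one_mul]
    have hlt : finrank F P < k := by omega
    obtain ⟨μ', hJP, hμ', hsel'⟩ := ih (finrank F P) hlt P rfl hPT hP
    have hNZ : ∀ v ∈ Z, (T - 1) v ∈ Z := by
      intro v hv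
      rw [LinearMap.sub_apply, Module.End.one_apply]
      exact Z.sub_mem (hZT (Submodule.mem_map_of_mem hv)) hv
    have hNP : ∀ v ∈ P, (T - 1) v ∈ P := by
      intro v hv
      rw [LinearMap.sub_apply, Module.End.one_apply]
      exact P.sub_mem (hPT (Submodule.mem_map_of_mem hv)) hv
    refine ⟨Multiset.replicate 1 a + μ', ?_, ?_, ?_⟩
    · rw [← hZPE]
      exact Cfsg.Agent.Helper37.TI5956.jt_add (T - 1) Z P hNZ hNP hZP _ _ hJZ hJP
    · intro b hb
      rcases Multiset.mem_add.mp hb with h | h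
      · rw [Multiset.eq_of_mem_replicate h]
        exact ⟨ha0, hap⟩
      · exact hμ' b h
    · intro ν hν
      by_cases hmem : a ∈ ν
      · have hcnt : 1 ≤ ν.count a := Multiset.one_le_count_iff_mem.mpr hmem
        have hle : Multiset.replicate 1 a ≤ ν := Multiset.le_count_iff_replicate_le.mp hcnt
        obtain ⟨ν', hνeq⟩ : ∃ ν' : Multiset ℕ, ν = Multiset.replicate 1 a + ν' :=
          ⟨ν - Multiset.replicate 1 a, (add_tsub_cancel_of_le hle).symm⟩
        subst hνeq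
        have hν'le : ν' ≤ μ' := (add_le_add_iff_left _).mp hν
        obtain ⟨W', hW'P, hW'T, hW', hfW'⟩ := hsel' ν' hν'le
        obtain ⟨hnd, -, hfr2⟩ := hsum Z W' hZ hW'
          (fun u hu v hv => ho1 u hu v (hW'P hv)) (fun u hu v hv => ho2 u (hW'P hu) v hv)
        refine ⟨Z ⊔ W', sup_le hZE (hW'P.trans hPE), ?_, hnd, ?_⟩
        · rw [Submodule.map_sup]
          exact sup_le_sup hZT hW'T
        · rw [hfr2, hfZ, hfW', Multiset.sum_add, Multiset.sum_replicate, smul_eq_mul, one_mul]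
      · have hνle : ν ≤ μ' := by
          rw [Multiset.le_iff_count]
          intro b
          have h1 := Multiset.le_iff_count.mp hν b
          rw [Multiset.count_add, Multiset.count_replicate] at h1
          split_ifs at h1 with hab
          · subst hab
            rw [Multiset.count_eq_zero_of_notMem hmem]
            exact Nat.zero_le _
          · simpa using h1
        obtain ⟨W, hWP, hWT, hW, hfW⟩ := hsel' ν hνle
        exact ⟨W, hWP.trans hPE, hWT, hW, hfW⟩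

end geom2

end Cfsg.Agent.Helper50.TI5954
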