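import Mathlib
import Cfsg.Agent.Helper13.TLDefs

/-!
# CALL S5954 (helper13), piece UTRANSFIX, generic form (helper50)

`u_trans_fix_of`: the statement of `u_trans_fix` for an arbitrary Hermitian form, with the two pieces
it uses (UPERP with `T = 1`, UXFERSUB) as explicit hypotheses.
-/

set_option autoImplicit false

namespace Cfsg.Agent.Helper50.TI5954

open Module Polynomial
open Cfsg.Agent.Helper13.TIu Cfsg.Agent.Helper13.TIsp

section xf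

variable {F : Type*} [Field F] {σ : F →+* F} {V : Type*} [AddCommGroup V] [Module F V]

/-- the parametrisation `W × P × Q ≃ V` of `V = (W ⊕ P) ⊕ Q` -/
theorem utf_bij (K W P Q : Submodule F V) (hWK : W ≤ K) (hPK : P ≤ K) (hWP : W ⊓ P = ⊥)
    (hWPs : W ⊔ P = K) (hKQ : K ⊓ Q = ⊥) (hKQs : K ⊔ Q = ⊤) :
    ∃ E : (W × P × Q) ≃ₗ[F] V, ∀ x, E x = (x.1 : V) + ((x.2.1 : V) + (x.2.2 : V)) := by
  classical
  obtain ⟨E, hE⟩ : ∃ E : (W × P × Q) →ₗ[F] V, ∀ x,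
      E x = (x.1 : V) + ((x.2.1 : V) + (x.2.2 : V)) :=
    ⟨LinearMap.coprod W.subtype (LinearMap.coprod P.subtype Q.subtype), fun x => by
      simp [LinearMap.coprod_apply]⟩
  have hinj : Function.Injective E := by
    rw [← LinearMap.ker_eq_bot, eq_bot_iff]
    rintro ⟨w, p, q⟩ hx
    rw [LinearMap.mem_ker, hE] at hx
    simp only at hx
    have hpK : (p : V) ∈ K := hPK p.2
    have hwK : (w : V) ∈ K := hWK w.2
    have hq0 : (q : V) = 0 := by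
      have hqK : (q : V) ∈ K := by
        have : (q : V) = -((w : V) + (p : V)) := by
          rw [← add_assoc] at hx
          exact eq_neg_of_add_eq_zero_right hx
        rw [this]
        exact K.neg_mem (K.add_mem hwK hpK)
      have : (q : V) ∈ K ⊓ Q := ⟨hqK, q.2⟩
      rw [hKQ] at this
      exact (Submodule.mem_bot F).mp this
    rw [hq0, add_zero] at hx
    have hp0 : (p : V) = 0 := by
      have hpW : (p : V) ∈ W := by
        have : (p : V) = -(w : V) := eq_neg_of_add_eq_zero_right hx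
        rw [this]
        exact W.neg_mem w.2
      have : (p : V) ∈ W ⊓ P := ⟨hpW, p.2⟩
      rw [hWP] at this
      exact (Submodule.mem_bot F).mp this
    rw [hp0, add_zero] at hx
    rw [Submodule.mem_bot]
    exact Prod.ext (Subtype.ext hx) (Prod.ext (Subtype.ext hp0) (Subtype.ext hq0))
  have hsurj : Function.Surjective E := by
    intro v
    have hv : v ∈ K ⊔ Q := by rw [hKQs]; exact Submodule.mem_top
    obtain ⟨k, hk, q, hq, rfl⟩ := Submodule.mem_sup.mp hv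
    rw [← hWPs] at hk
    obtain ⟨w, hw, p, hp, rfl⟩ := Submodule.mem_sup.mp hk
    exact ⟨(⟨w, hw⟩, ⟨p, hp⟩, ⟨q, hq⟩), by rw [hE, add_assoc]⟩
  exact ⟨LinearEquiv.ofBijective E ⟨hinj, hsurj⟩, fun x => hE x⟩

variable [FiniteDimensional F V] (B : V →ₛₗ[σ] V →ₗ[F] F)

/-- UTRANSFIX with UPERP (`hperp`, at `T = 1`) and UXFERSUB (`hxfer`) as hypotheses. -/
theorem u_trans_fix_of (hS : B.IsSymm) (hnd : UNd B ⊤)
    (hperp : ∀ M M₁ : Submodule F V, UNd B M → UNd B M₁ → M₁ ≤ M →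
      ∃ P : Submodule F V, P ≤ M ∧ UNd B P ∧ M₁ ⊓ P = ⊥ ∧ M₁ ⊔ P = M ∧
        (∀ u ∈ M₁, ∀ v ∈ P, B u v = 0) ∧ (∀ u ∈ P, ∀ v ∈ M₁, B u v = 0) ∧
        finrank F P + finrank F M₁ = finrank F M)
    (hxfer : ∀ U : Submodule F V, UNd B U → ∀ d : ℕ, finrank F U = d →
      ∃ Φ : U ≃ₗ[F] (Fin d → F), ∀ u v : U, stdH σ d (Φ u) (Φ v) = B (u : V) (v : V))
    (K W W' : Submodule F V) (hK : UNd B K) (hW : UNd B W) (hW' : UNd B W') (hWK : W ≤ K)
    (hW'K : W' ≤ K) (hdim : finrank F W = finrank F W') :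
    ∃ g : V ≃ₗ[F] V, (∀ u v, B (g u) (g v) = B u v) ∧
      W.map (g : V →ₗ[F] V) = W' ∧ ∀ v, (∀ u ∈ K, B u v = 0) → g v = v := by
  classical
  have hiso : ∀ E E' : Submodule F V, UNd B E → UNd B E' → finrank F E = finrank F E' →
      ∃ φ : E ≃ₗ[F] E', ∀ x y : E, B (φ x : V) (φ y : V) = B (x : V) (y : V) := by
    intro E E' hE hE' hd
    obtain ⟨Φ, hΦ⟩ := hxfer E hE (finrank F E) rfl
    obtain ⟨Φ', hΦ'⟩ := hxfer E' hE' (finrank F E) hd.symm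
    refine ⟨Φ.trans Φ'.symm, fun x y => ?_⟩
    have h1 := hΦ' ((Φ.trans Φ'.symm) x) ((Φ.trans Φ'.symm) y)
    rw [LinearEquiv.trans_apply, LinearEquiv.trans_apply, LinearEquiv.apply_symm_apply,
      LinearEquiv.apply_symm_apply, hΦ x y] at h1
    exact h1.symm
  obtain ⟨P, hPK, hPnd, hWP, hWPs, hWPo, hPWo, hPdim⟩ := hperp K W hK hW hWK
  obtain ⟨P', hP'K, hP'nd, hWP', hWPs', hWPo', hPWo', hPdim'⟩ := hperp K W' hK hW' hW'K
  obtain ⟨Q, -, hQnd, hKQ, hKQs, hKQo, hQKo, hQdim⟩ := hperp ⊤ K hnd hK le_top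
  obtain ⟨φ₁, hφ₁⟩ := hiso W W' hW hW' hdim
  obtain ⟨φ₂, hφ₂⟩ := hiso P P' hPnd hP'nd (by omega)
  obtain ⟨E, hE⟩ := utf_bij K W P Q hWK hPK hWP hWPs hKQ hKQs
  obtain ⟨E', hE'⟩ := utf_bij K W' P' Q hW'K hP'K hWP' hWPs' hKQ hKQs
  -- orthogonality
  have hPQ : ∀ a ∈ P, ∀ c ∈ Q, B a c = 0 := fun a ha c hc => hKQo a (hPK ha) c hc
  have hQP : ∀ c ∈ Q, ∀ a ∈ P, B c a = 0 := fun c hc a ha => hQKo c hc a (hPK ha)
  have hWQ : ∀ a ∈ W, ∀ c ∈ Q, B a c = 0 := fun a ha c hc => hKQo a (hWK ha) c hc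
  have hQW : ∀ c ∈ Q, ∀ a ∈ W, B c a = 0 := fun c hc a ha => hQKo c hc a (hWK ha)
  have hPQ' : ∀ a ∈ P', ∀ c ∈ Q, B a c = 0 := fun a ha c hc => hKQo a (hP'K ha) c hc
  have hQP' : ∀ c ∈ Q, ∀ a ∈ P', B c a = 0 := fun c hc a ha => hQKo c hc a (hP'K ha)
  have hWQ' : ∀ a ∈ W', ∀ c ∈ Q, B a c = 0 := fun a ha c hc => hKQo a (hW'K ha) c hc
  have hQW' : ∀ c ∈ Q, ∀ a ∈ W', B c a = 0 := fun c hc a ha => hQKo c hc a (hW'K ha)
  let ψ : (W × P × Q) ≃ₗ[F] (W' × P' × Q) :=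
    φ₁.prodCongr (φ₂.prodCongr (LinearEquiv.refl F Q))
  have hψ : ∀ x : W × P × Q, ψ x = (φ₁ x.1, φ₂ x.2.1, x.2.2) := fun x => rfl
  have hTE : ∀ x y : W × P × Q, B (E' (ψ x)) (E' (ψ y)) = B (E x) (E y) := by
    rintro ⟨w, p, q⟩ ⟨w', p', q'⟩
    rw [hψ, hψ, hE', hE', hE, hE]
    simp only [map_add, LinearMap.add_apply]
    rw [hφ₁, hφ₂, hWPo' _ (φ₁ w).2 _ (φ₂ p').2, hWQ' _ (φ₁ w).2 _ q'.2,
      hPWo' _ (φ₂ p).2 _ (φ₁ w').2, hPQ' _ (φ₂ p).2 _ q'.2, hQW' _ q.2 _ (φ₁ w').2,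
      hQP' _ q.2 _ (φ₂ p').2, hWPo _ w.2 _ p'.2, hWQ _ w.2 _ q'.2, hPWo _ p.2 _ w'.2,
      hPQ _ p.2 _ q'.2, hQW _ q.2 _ w'.2, hQP _ q.2 _ p'.2]
  let g : V ≃ₗ[F] V := E.symm.trans (ψ.trans E')
  have hg : ∀ x, g (E x) = E' (ψ x) := by
    intro x
    show E' (ψ (E.symm (E x))) = E' (ψ x)
    rw [LinearEquiv.symm_apply_apply]
  have hpres : ∀ u v, B (g u) (g v) = B u v := by
    intro u v
    obtain ⟨x, rfl⟩ := E.surjective u
    obtain ⟨y, rfl⟩ := E.surjective v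
    rw [hg, hg, hTE]
  have heW : ∀ w : W, g (w : V) = (φ₁ w : V) := by
    intro w
    have h1 : E (w, 0, 0) = (w : V) := by rw [hE]; simp
    have h2 := hg (w, 0, 0)
    rw [h1, hψ, hE'] at h2
    simpa using h2
  have heQ : ∀ q ∈ Q, g q = q := by
    intro q hq
    have h1 : E (0, 0, ⟨q, hq⟩) = q := by rw [hE]; simp
    have h2 := hg (0, 0, ⟨q, hq⟩)
    rw [h1, hψ, hE'] at h2
    simpa using h2
  refine ⟨g, hpres, ?_, ?_⟩
  · apply le_antisymm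
    · rintro _ ⟨w, hw, rfl⟩
      have := heW ⟨w, hw⟩
      simp only at this
      rw [LinearEquiv.coe_coe, this]
      exact (φ₁ ⟨w, hw⟩).2
    · intro w' hw'
      refine ⟨(φ₁.symm ⟨w', hw'⟩ : W), (φ₁.symm ⟨w', hw'⟩).2, ?_⟩
      rw [LinearEquiv.coe_coe, heW, LinearEquiv.apply_symm_apply]
  · intro v hv
    apply heQ
    have hv' : v ∈ K ⊔ Q := by rw [hKQs]; exact Submodule.mem_top
    obtain ⟨k, hk, q, hq, rfl⟩ := Submodule.mem_sup.mp hv'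
    have hk0 : k = 0 := by
      apply hK k hk
      intro u hu
      have h1 := hv u hu
      rw [map_add, hKQo u hu q hq, add_zero] at h1
      rw [← hS.eq u k, h1, map_zero]
    rw [hk0, zero_add]
    exact hq

end xf

end Cfsg.Agent.Helper50.TI5954
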